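import Cfsg.Agent.H18.RfSc
import Cfsg.Agent.H42.Sylow2
import Cfsg.Agent.H9.GHList
import Cfsg.Prelude.Def_CaseTheorems

/-! Project RF (row 3318): the chapters QG, QT and ENDT.  Proofs: `stubs/notes/h35_rf.md`. -/

set_option autoImplicit false
set_option linter.unusedVariables false

namespace Cfsg.Agent.H35.RF

open Cfsg Subgroup Cfsg.Agent.H42 Cfsg.Agent.H18.Rf
open Cfsg.Agent.H48 (IsWord)
open Cfsg.Agent.H49 (XS LX)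
open scoped commutatorElement Pointwise

universe u

section Basic

variable {G : Type u} [Group G]

/-- squares of `A` lie in `Z` -/
def Sq (A Z : Subgroup G) : Prop := ∀ a ∈ A, a * a ∈ Z

/-- the preimage of a subgroup of the Mathieu group -/
def pre (V : Subgroup G) (ρ : NN V →* M24) (S : Subgroup M24) : Subgroup G :=
  (S.comap ρ).map (NN V).subtype

theorem mem_pre {V : Subgroup G} {ρ : NN V →* M24} {S : Subgroup M24} {g : G} :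
    g ∈ pre V ρ S ↔ ∃ h : g ∈ NN V, ρ ⟨g, h⟩ ∈ S := by
  constructor
  · rintro ⟨n, hn, rfl⟩
    exact ⟨n.2, hn⟩
  · rintro ⟨h, hn⟩
    exact ⟨⟨g, h⟩, hn, rfl⟩

theorem coe_mem_pre {V : Subgroup G} {ρ : NN V →* M24} {S : Subgroup M24} {n : NN V} :
    (n : G) ∈ pre V ρ S ↔ ρ n ∈ S := by
  rw [mem_pre]
  exact ⟨fun ⟨_, h⟩ => h, fun h => ⟨n.2, h⟩⟩

/-- the standard octad -/
def o0 : Finset GolayPt := toSet oct0
/-- a tetrad of the standard sextet -/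
def t0 : Finset GolayPt := toSet 8388615
/-- generators of the normal `2^6` of the sextet group -/
def gF : List ℕ := [976448692869377735270425038196672544, 972512676110088067912772961567868960,
  984202951082164080105044112956360736, 984724508489452699215480746259449888,
  111890735759189500967275039606037505, 70399228063273750146191920654811874]
/-- an element of order three fixing the six tetrads -/
def rS : ℕ := 63091270512736695476215892246912064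

/-- code case: `W` -/
def WG (ψ : Finset GolayPt → G) : Subgroup G :=
  closure {v | ∃ c, IsWord c ∧ (Disjoint c o0 ∨ o0 ⊆ c) ∧ ψ c = v}
/-- code case: `R = Q V` -/
noncomputable def RG (V : Subgroup G) (ρ : NN V →* M24) : Subgroup G := pre V ρ (fixS oct0)
/-- cocode case: `W` -/
def WT (ψ : Finset GolayPt → G) : Subgroup G :=
  closure {v | ∃ c : Finset GolayPt, (∀ t ∈ famDec 6 sext0, ∀ t' ∈ famDec 6 sext0,
    (c ∩ t).card % 2 = (c ∩ t').card % 2) ∧ ψ c = v}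
/-- cocode case: `R = Q V` -/
noncomputable def RT (V : Subgroup G) (ρ : NN V →* M24) : Subgroup G := pre V ρ (gen gF)

/-- cocode setting with the element of order three -/
structure Tz (V : Subgroup G) (ρ : NN V →* M24) (ψ : Finset GolayPt → G) (ω : G) : Prop where
  st : St V ρ
  tod : Tod V ρ ψ
  om : ∃ h : ω ∈ NN V, ρ ⟨ω, h⟩ = toM rS
  o3 : ω ^ 3 = 1

/-- Facts on `V`, both modules: inclusions and orders. -/
structure Va (V : Subgroup G) (z : G) (W R : Subgroup G) : Prop where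
  el : ∀ v ∈ V, v * v = 1
  cen : CC V = V
  cV : Nat.card V = 2 ^ 11
  z1 : z ≠ 1
  zW : z ∈ W
  WV : W ≤ V
  VR : V ≤ R
  RM : R ≤ MM V z
  nW : MM V z ≤ NN W
  nR : MM V z ≤ NN R
  sqR : Sq R V
  RV : ∀ r ∈ R, ∀ v ∈ V, ⁅r, v⁆ ∈ W
  RW : ∀ r ∈ R, ∀ w ∈ W, ⁅r, w⁆ ∈ zpowers z
  syl : ∃ m, Odd m ∧ Nat.card (MM V z) = 2 ^ 21 * m
  nv : ∃ m, Odd m ∧ Nat.card (NN V) = 2 ^ 21 * m
  big : 16 * Nat.card W ≤ Nat.card V
  Wz : ¬ W ≤ zpowers z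

/-- kernels -/
structure Vb (V : Subgroup G) (z : G) (W R : Subgroup G) : Prop where
  nw : NN V ⊓ CC W ≤ V
  kW : ∀ m ∈ MM V z, (∀ w ∈ W, ⁅m, w⁆ ∈ zpowers z) → m ∈ R
  kR : ∀ m ∈ MM V z, (∀ r ∈ R, ⁅m, r⁆ ∈ V) → m ∈ R
  odd : ∃ k, Nat.card ↥(MM V z ⊓ CM V W) ∣ 3 * 2 ^ k

/-- commutators between `R` and `V` -/
structure Vc (V : Subgroup G) (z : G) (W R : Subgroup G) : Prop where
  cz : ∀ w ∈ W, (∀ r ∈ R, r * w = w * r) → w ∈ zpowers z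
  cv : ∀ v ∈ V, (∀ r ∈ R, ⁅r, v⁆ ∈ zpowers z) → v ∈ W
  hyp : ∀ V₀ : Subgroup G, W ≤ V₀ → V₀ ≤ V → Nat.card V = 2 * Nat.card V₀ →
    ∀ r ∈ R, (∀ v ∈ V₀, ⁅r, v⁆ ∈ zpowers z) → r ∈ V

/-- irreducible sections -/
structure Vd (V : Subgroup G) (z : G) (W R : Subgroup G) : Prop where
  iW : ∀ B : Subgroup G, z ∈ B → B ≤ W → MM V z ≤ NN B → B = zpowers z ∨ B = W
  iR : ∀ U : Subgroup G, V ≤ U → U ≤ R → MM V z ≤ NN U → U = V ∨ U = R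

structure VC (V : Subgroup G) (z : G) (W R : Subgroup G) : Prop
  extends Va V z W R, Vb V z W R, Vc V z W R, Vd V z W R

/-- The complement `Q / W` of `V / W` in `R / W`. -/
structure QL (V : Subgroup G) (z : G) (W R Q : Subgroup G) : Prop where
  inf : Q ⊓ V = W
  sup : Q ⊔ V = R
  nQ : MM V z ≤ NN Q

/-- code case -/
structure Ga (V : Subgroup G) (z : G) (W R : Subgroup G) : Prop where
  cW : Nat.card W = 2 ^ 5
  cR : Nat.card R = 2 ^ 15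
  cM : Nat.card (MM V z) = 2 ^ 21 * 315

structure Gb (V : Subgroup G) (z : G) (W R : Subgroup G) : Prop where
  trW : ∀ w ∈ W, w ∉ zpowers z → ∀ w' ∈ W, w' ∉ zpowers z → ∃ m ∈ MM V z, m * w * m⁻¹ = w'
  trR : ∀ r ∈ R, r ∉ V → ∀ r' ∈ R, r' ∉ V → ∃ m ∈ MM V z, m * r * m⁻¹ * r'⁻¹ ∈ V

def Ge (V : Subgroup G) (z : G) (W R : Subgroup G) : Prop :=
  ∃ w ∈ W, w ∉ zpowers z ∧
    {v | v ∈ V ∧ ∀ r ∈ R, r * w = w * r → v * r * v⁻¹ * r⁻¹ ∈ UU z w}.ncard = 2 ^ 8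

/-- cocode case: orders and the element of order three -/
structure Ta (V : Subgroup G) (z : G) (W R : Subgroup G) (ω : G) : Prop where
  cW : Nat.card W = 2 ^ 7
  cR : Nat.card R = 2 ^ 17
  cM : Nat.card (MM V z) = 2 ^ 21 * 135
  om : ω ∈ MM V z
  o3 : orderOf ω = 3
  ωV : ∀ v ∈ V, ⁅v, ω⁆ ∈ W
  fW : ∀ w ∈ W, ⁅ω, w⁆ ∈ zpowers z → w ∈ zpowers z
  fR : ∀ r ∈ R, ⁅ω, r⁆ ∈ V → r ∈ V
  sl : ∀ m ∈ MM V z, ⁅m, ω⁆ ∈ R ∨ m * ω * m⁻¹ * ω ∈ R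
  inv : ∃ m ∈ MM V z, ⁅m, ω⁆ ∉ R

/-- cocode case: `R` against `V` -/
structure Tb (V : Subgroup G) (z : G) (W R : Subgroup G) : Prop where
  ker : ∀ v ∈ V, v ∉ W → {r | r ∈ R ∧ ⁅r, v⁆ ∈ zpowers z}.ncard ≤ 2 ^ 13
  four : ∀ v ∈ V, ∀ v' ∈ V, v ∉ W → v' ∉ W → v * v' ∉ W → ∀ r ∈ R, ⁅r, v⁆ ∈ zpowers z →
    ⁅r, v'⁆ ∈ zpowers z → r ∈ V
  big : ∀ e ∈ V, ∃ r ∈ R, r ∉ V ∧ ⁅r, e⁆ ∈ zpowers z

/-- cocode case: the quotient `3.S₆` on `V / W` -/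
structure Tc (V : Subgroup G) (z : G) (W R : Subgroup G) (ω : G) : Prop where
  cen8 : ∀ m ∈ MM V z, ⁅m, ω⁆ ∈ R → ∀ U : Subgroup G, W ≤ U → U ≤ V →
    8 * Nat.card W ≤ Nat.card U → (∀ u ∈ U, ⁅m, u⁆ ∈ W) → m ∈ R ⊔ zpowers ω
  cenM : ∀ m ∈ MM V z, (∀ v ∈ V, ⁅m, v⁆ ∈ W) → m ∈ R ⊔ zpowers ω
  irr : ∀ U : Subgroup G, W ≤ U → U ≤ V → (∀ m ∈ MM V z, ⁅m, ω⁆ ∈ R → m ∈ NN U) → U = W ∨ U = V

structure Td (V : Subgroup G) (z : G) (W R : Subgroup G) (ω : G) : Prop where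
  k2 : ∀ Y : Subgroup G, R ≤ Y → Y ≤ MM V z → (∀ y ∈ Y, ⁅y, ω⁆ ∈ R) → Sq Y R →
    Nat.card Y ≤ 4 * Nat.card R
  zT : ∃ T : Subgroup G, R ≤ T ∧ T ≤ MM V z ∧ Nat.card T = 2 ^ 21 ∧
    ∃ e ∈ V, e ∉ W ∧ (∀ t ∈ T, ⁅t, e⁆ ∈ W) ∧
      ∀ v ∈ V, (∀ t ∈ T, ⁅t, ω⁆ ∈ R → ⁅t, v⁆ ∈ W) → v ∈ W ∨ v * e ∈ W

structure Te (V : Subgroup G) (z : G) (W R : Subgroup G) (ω : G) : Prop where
  nH : ∀ M : Subgroup G, R ≤ M → M ≤ MM V z → MM V z ≤ NN M →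
    M ≤ R ⊔ zpowers ω ∨ ∀ h ∈ MM V z, ⁅h, ω⁆ ∈ R → h ∈ M
  perf : ω ∈ ⁅MM V z ⊓ C1 ω, MM V z ⊓ C1 ω⁆

def Tf (V : Subgroup G) (z : G) (W R : Subgroup G) (ω : G) : Prop :=
  ∀ h ∈ MM V z, h ^ 3 ∈ R → (∀ w ∈ W, ⁅h, w⁆ ∈ zpowers z → w ∈ zpowers z) → h ∈ R ⊔ zpowers ω

/-- everything in the cocode case -/
structure Co (V : Subgroup G) (z : G) (W R : Subgroup G) (ω : G) (Q : Subgroup G) : Prop where
  vc : VC V z W R
  a : Ta V z W R ω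
  b : Tb V z W R
  c : Tc V z W R ω
  d : Td V z W R ω
  e : Te V z W R ω
  f : Tf V z W R ω
  ql : QL V z W R Q
  wc : H18.MaxOff.WC V
  lx : LX Q z
  cQ : Nat.card Q = 2 ^ 13
  o2 : ∀ P : Subgroup G, IsPGroup 2 P → P ≤ C1 z → C1 z ≤ NN P → P ≤ Q

/-- consequences in the centralizer -/
structure Cq (V : Subgroup G) (z : G) (W Q : Subgroup G) : Prop where
  kerA : ∀ c ∈ C1 z, (∀ q ∈ Q, ⁅c, q⁆ ∈ zpowers z) → c ∈ Q
  nW : ∀ c ∈ C1 z, c ∈ NN W → c ∈ NN V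
  two : ∃ m, Odd m ∧ Nat.card (C1 z) = 2 ^ 21 * m

/-- The quotient data `X = C(z) / Q` acting on `A = Q / ⟨z⟩`. -/
structure Qt (z : G) (Q : Subgroup G) {X A : Type u} [Group X] [Group A] (π : C1 z →* X)
    (α : Q →* A) (φ : X →* MulAut A) (s : A → ZMod 2) : Prop where
  πs : Function.Surjective π
  πk : ∀ c, π c = 1 ↔ (c : G) ∈ Q
  αs : Function.Surjective α
  αk : ∀ q, α q = 1 ↔ (q : G) ∈ zpowers z
  act : ∀ (c : C1 z) (q q' : Q), (q' : G) = c * q * (c : G)⁻¹ → φ (π c) (α q) = α q'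
  qf : ∀ q : Q, s (α q) = 0 ↔ (q : G) * q = 1

/-- image in `X` -/
abbrev im {z : G} {X : Type u} [Group X] (π : C1 z →* X) (S : Subgroup G) : Subgroup X :=
  (S.subgroupOf (C1 z)).map π
/-- image in `A` -/
abbrev ia {Q : Subgroup G} {A : Type u} [Group A] (α : Q →* A) (S : Subgroup G) : Subgroup A :=
  (S.subgroupOf Q).map α

end Basic

section XLevel

variable {X A : Type u} [Group X] [Group A]

/-- The quadratic form. -/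
structure XFq (φ : X →* MulAut A) (s : A → ZMod 2) : Prop where
  inj : Function.Injective φ
  sqA : ∀ a : A, a * a = 1
  cA : Nat.card A = 2 ^ 12
  sinv : ∀ x a, s (φ x a) = s a
  bil : ∀ a a' b, s (a * a' * b) + s (a * a') + s b =
    (s (a * b) + s a + s b) + (s (a' * b) + s a' + s b)
  nd : ∀ a, (∀ b, s (a * b) + s a + s b = 0) → a = 1

/-- The action. -/
structure XFa (φ : X →* MulAut A) (s : A → ZMod 2) (W : Subgroup A) (H E : Subgroup X) (ρ : X) :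
    Prop where
  cW : Nat.card W = 2 ^ 6
  sW : ∀ w ∈ W, s w = 0
  nW : ∀ x, x ∈ H ↔ ∀ w ∈ W, φ x w ∈ W
  EW1 : ∀ e ∈ E, ∀ w ∈ W, φ e w = w
  EW2 : ∀ e ∈ E, ∀ a, φ e a * a ∈ W
  r8 : ∀ e ∈ E, e ≠ 1 → {a | φ e a = a}.ncard ≤ 2 ^ 8
  four : ∀ e ∈ E, ∀ e' ∈ E, e ≠ 1 → e' ≠ 1 → e * e' ≠ 1 → ∀ a, φ e a = a → φ e' a = a → a ∈ W
  big : ∀ e ∈ E, ∃ a, a ∉ W ∧ φ e a = a
  fpf : ∀ a, φ ρ a = a → a = 1
  h3 : ∀ h ∈ H, h ^ 3 = 1 → (∀ w ∈ W, φ h w = w → w = 1) → h ∈ zpowers ρ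

/-- The group. -/
structure XFb (H E T : Subgroup X) (ρ : X) : Prop where
  syl : ∃ P : Sylow 2 X, (P : Subgroup X) = T
  TH : T ≤ H
  ET : E ≤ T
  cT : Nat.card T = 256
  cH : Nat.card H = 256 * 135
  cE : Nat.card E = 16
  sqE : ∀ e ∈ E, e * e = 1
  nE : H ≤ NN E
  ρH : ρ ∈ H
  ρ3 : orderOf ρ = 3
  nρ : H ≤ NN (zpowers ρ)
  Eρ : E ≤ C1 ρ
  inv : ¬ H ≤ C1 ρ
  zT : ∃ e ∈ E, e ≠ 1 ∧ T ≤ C1 e ∧ ∀ v ∈ E, T ⊓ C1 ρ ≤ C1 v → v = 1 ∨ v = e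
  o2 : pCore 2 X = ⊥

structure XFc (H E : Subgroup X) (ρ : X) : Prop where
  nH : ∀ M : Subgroup X, M ≤ H → H ≤ NN M → M ≤ E ⊔ zpowers ρ ∨ H ⊓ C1 ρ ≤ M
  irr : ∀ U : Subgroup X, U ≤ E → H ⊓ C1 ρ ≤ NN U → U = ⊥ ∨ U = E
  cen : H ⊓ CC E ≤ E ⊔ zpowers ρ

structure XF (φ : X →* MulAut A) (s : A → ZMod 2) (W : Subgroup A) (H E T : Subgroup X) (ρ : X) :
    Prop extends XFq φ s, XFa φ s W H E ρ, XFb H E T ρ, XFc H E ρ

/-- The layer. -/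
structure XL (H L : Subgroup X) (ρ : X) : Prop where
  nrm : L.Normal
  qs : IsQuasisimple L
  le : H ⊓ C1 ρ ≤ L
  cL : CC L ≤ zpowers ρ

/-- The end configuration: `L / ⟨ρ⟩ ≅ S`. -/
structure XE (L : Subgroup X) (ρ : X) {S : Type u} [Group S] (θ : L →* S) : Prop where
  nrm : L.Normal
  ρ3 : orderOf ρ = 3
  ρL : ρ ∈ L
  Lρ : L ≤ C1 ρ
  nρ : (zpowers ρ).Normal
  inv : C1 ρ ≠ ⊤
  surj : Function.Surjective θ
  ker : ∀ l, θ l = 1 ↔ (l : X) ∈ zpowers ρ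
  simple : IsSimpleGroup S
  nonab : ¬ IsMulCommutative S
  cL : ∀ x : X, (∀ l ∈ L, ⁅x, l⁆ ∈ zpowers ρ) → x ∈ zpowers ρ
  two : ∃ m, Odd m ∧ Nat.card X = 256 * m
  seven : 128 ∣ Nat.card S
  dvd : Nat.card S ∣ 2 ^ 7 * 3 ^ 7 * 5 * 7 * 11

end XLevel

/-! ### Facts on `V`: code -/

section Stmts

/-- a statement about all code settings -/
def AllG (P : ∀ {G : Type u} [Group G], Subgroup G → G → Subgroup G → Subgroup G → Prop) : Prop :=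
  ∀ (G : Type u) [Group G] [Finite G] (V : Subgroup G) (ρ : NN V →* M24) ψ,
    St V ρ → Gol V ρ ψ → P V (ψ o0) (WG ψ) (RG V ρ)

/-- a statement about all cocode settings -/
def AllT (P : ∀ {G : Type u} [Group G], Subgroup G → G → Subgroup G → Subgroup G → G → Prop) :
    Prop :=
  ∀ (G : Type u) [Group G] [Finite G] (V : Subgroup G) (ρ : NN V →* M24) ψ (ω : G),
    Tz V ρ ψ ω → P V (ψ t0) (WT ψ) (RT V ρ) ω

/-- kit, code case -/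
def KitGStmt : Prop := ∀ (G : Type u) [Group G] [Finite G] (V : Subgroup G) (ρ : NN V →* M24) ψ,
  St V ρ → Gol V ρ ψ → MM V (ψ o0) = pre V ρ GO ∧
    (∀ c, IsWord c → (ψ c ∈ WG ψ ↔ Disjoint c o0 ∨ o0 ⊆ c)) ∧
    (∀ c, IsWord c → (ψ c ∈ zpowers (ψ o0) ↔ c = ∅ ∨ c = Finset.univ ∨ c = o0 ∨ c = o0ᶜ)) ∧
    ∀ S : Subgroup M24, Nat.card (pre V ρ S) = 2 ^ 11 * Nat.card S

/-- kit, cocode case -/
def KitTStmt : Prop := ∀ (G : Type u) [Group G] [Finite G] (V : Subgroup G) (ρ : NN V →* M24) ψ,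
  St V ρ → Tod V ρ ψ → MM V (ψ t0) = pre V ρ GS ∧
    (∀ c : Finset GolayPt, Even c.card → (ψ c ∈ WT ψ ↔ ∀ t ∈ famDec 6 sext0,
      ∀ t' ∈ famDec 6 sext0, (c ∩ t).card % 2 = (c ∩ t').card % 2)) ∧
    (∀ c : Finset GolayPt, Even c.card →
      (ψ c ∈ zpowers (ψ t0) ↔ IsWord c ∨ IsWord (symmDiff c t0))) ∧
    (∀ S : Subgroup M24, Nat.card (pre V ρ S) = 2 ^ 11 * Nat.card S) ∧
    Nat.card (gen gF) = 64 ∧ ∃ ω, Tz V ρ ψ ω

def VaGStmt : Prop := AllG.{u} fun V z W R => Va V z W R ∧ Ga V z W R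
def VbGStmt : Prop := AllG.{u} fun V z W R => Vb V z W R
def VcGStmt : Prop := AllG.{u} fun V z W R => Vc V z W R
def VdGStmt : Prop := AllG.{u} fun V z W R => Vd V z W R
def GbStmt : Prop := AllG.{u} fun V z W R => Gb V z W R
def GeStmt : Prop := AllG.{u} fun V z W R => Ge V z W R

/-- the complement over the point stabilizer -/
def Qd1Stmt : Prop := ∀ (G : Type u) [Group G] [Finite G] (V : Subgroup G) (ρ : NN V →* M24) ψ,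
  St V ρ → Gol V ρ ψ → ∃ K : Subgroup G, K ⊓ V = ⊥ ∧ K ⊔ V = pre V ρ G23

def Qd2Stmt : Prop := ∀ (G : Type u) [Group G] [Finite G] (V : Subgroup G) (z : G)
  (W R K P : Subgroup G), Va V z W R → K ⊓ V = ⊥ → K ⊔ V = P → P ≤ NN V → R ≤ P →
  ∃ Q : Subgroup G, Q ⊓ V = W ∧ Q ⊔ V = R ∧ Sq Q (zpowers z) ∧ Sq R W ∧ MM V z ⊓ P ≤ NN Q

def Qd3Stmt : Prop := ∀ (G : Type u) [Group G] [Finite G] (V : Subgroup G) (ρ : NN V →* M24) ψ,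
  St V ρ → Gol V ρ ψ → ∀ Q Q' : Subgroup G, Sq (RG V ρ) (WG ψ) → Q ⊓ V = WG ψ → Q ⊔ V = RG V ρ →
  Q' ⊓ V = WG ψ → Q' ⊔ V = RG V ρ → pre V ρ (GO ⊓ G22) ≤ NN Q ⊓ NN Q' → Q = Q'

def QdStmt : Prop := AllG.{u} fun V z W R => ∃ Q, QL V z W R Q ∧ Sq Q (zpowers z)

/-! ### Facts on `V`: cocode -/

def VaTStmt : Prop := AllT.{u} fun V z W R _ => Va V z W R
def TaStmt : Prop := AllT.{u} fun V z W R ω => Ta V z W R ω
def VbTStmt : Prop := AllT.{u} fun V z W R _ => Vb V z W R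
def VcTStmt : Prop := AllT.{u} fun V z W R _ => Vc V z W R
def VdTStmt : Prop := AllT.{u} fun V z W R _ => Vd V z W R
def TbStmt : Prop := AllT.{u} fun V z W R _ => Tb V z W R
def TcStmt : Prop := AllT.{u} fun V z W R ω => Tc V z W R ω
def TdStmt : Prop := AllT.{u} fun V z W R ω => Td V z W R ω
def TeStmt : Prop := AllT.{u} fun V z W R ω => Te V z W R ω
def TfStmt : Prop := AllT.{u} fun V z W R ω => Tf V z W R ω

def Qc1Stmt : Prop := AllT.{u} fun _ _ W R _ => Sq R W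
def Qc2Stmt : Prop := ∀ (G : Type u) [Group G] [Finite G] (V : Subgroup G) (z : G)
  (W R : Subgroup G) (ω : G), Va V z W R → Ta V z W R ω → Sq R W → ∃ Q, QL V z W R Q
def Qc3Stmt : Prop := AllT.{u} fun V z W R _ => ∀ Q, QL V z W R Q → Sq Q (zpowers z)

/-! ### From `V` to `Q` -/

def LcStmt : Prop := ∀ (G : Type u) [Group G] [Finite G] (V : Subgroup G) (z : G)
  (W R Q : Subgroup G), VC V z W R → QL V z W R Q → Sq Q (zpowers z) → LC V z Q W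

def TvqStmt : Prop := ∀ (G : Type u) [Group G] [Finite G] (V : Subgroup G) (z : G)
  (Q W : Subgroup G), (∀ v ∈ V, v * v = 1) → LC V z Q W → ∀ y ∈ MM V z,
  Nat.card Q ≤ 2 * Nat.card ↥(Q ⊓ CM {y} (zpowers z)) → y ∈ Q

def CiStmt : Prop := ∀ (G : Type u) [Group G] [Finite G] (V : Subgroup G) (z : G)
  (W R Q : Subgroup G), Va V z W R → Ga V z W R → Gb V z W R → QL V z W R Q → LC V z Q W →
  (∀ n ∈ NN V, 2 ^ 8 ≤ Nat.card ↥(V ⊓ C1 n) → n ∈ V) →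
  ∀ q ∈ Q, q ∉ W → q * q = 1 → Nat.card ↥(MM V z ⊓ C1 q) = 2 ^ 17 * 21

def E45Stmt : Prop := ∀ (G : Type u) [Group G] [Finite G] (V : Subgroup G) (z : G)
  (W R Q : Subgroup G), Va V z W R → Ga V z W R → Gb V z W R → Ge V z W R → QL V z W R Q →
  ∀ w ∈ W, w ∉ zpowers z → (∃ T : Subgroup G, T ≤ MM V z ⊓ NN (UU z w) ∧ Nat.card T = 2 ^ 21) ∧
    Nat.card ↥(V ⊓ Ew V z Q w) = 2 ^ 8

def Qg0Stmt : Prop := ∀ (G : Type u) [Group G] [Finite G] (V : Subgroup G) (ρ : NN V →* M24) ψ,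
  St V ρ → Gol V ρ ψ → ∃ Q W, LC V (ψ o0) Q W ∧ LG V ρ ψ o0 Q W

/-- commutators with `ω` modulo `R` and modulo `Q` -/
def LtaStmt : Prop := ∀ (G : Type u) [Group G] [Finite G] (V : Subgroup G) (z : G)
  (W R Q : Subgroup G) (ω : G), Va V z W R → Ta V z W R ω → QL V z W R Q →
  Nat.card Q = 2 ^ 13 ∧ Q ⊓ CM {ω} (zpowers z) ≤ zpowers z ∧
  (∀ m ∈ MM V z, ⁅m, ω⁆ ∈ R → ⁅m, ω⁆ ∈ Q) ∧
  ∀ m ∈ MM V z, m * ω * m⁻¹ * ω ∈ R → m * ω * m⁻¹ * ω ∈ Q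

def R4Stmt : Prop := ∀ (G : Type u) [Group G] [Finite G] (V : Subgroup G) (z : G)
  (W R Q : Subgroup G) (ω : G), VC V z W R → Ta V z W R ω → Tb V z W R → QL V z W R Q →
  XS Q z → ∀ y ∈ MM V z, y ∉ Q → y * y ∈ Q → Nat.card ↥(Q ⊓ CM {y} (zpowers z)) ≤ 2 ^ 9

def R5Stmt : Prop := ∀ (G : Type u) [Group G] [Finite G] (V : Subgroup G) (z : G)
  (W R Q : Subgroup G) (ω : G), Va V z W R → Ta V z W R ω → Tc V z W R ω → Td V z W R ω →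
  QL V z W R Q → ∀ Y : Subgroup G, Q ≤ Y → Y ≤ MM V z → (∀ y ∈ Y, y * y ∈ Q) →
  Nat.card Y ≤ 2 ^ 18

def Qt0Stmt : Prop := ∀ (G : Type u) [Group G] [Finite G] (V : Subgroup G) (ρ : NN V →* M24) ψ,
  St V ρ → Tod V ρ ψ → ∃ Q W ω, LC V (ψ t0) Q W ∧ LT V (ψ t0) Q W ω

/-! ### The end of the cocode case -/

/-- identification of `W` and `Q V` -/
def IdStmt : Prop := ∀ (G : Type u) [Group G] [Finite G] (V : Subgroup G) (z : G)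
  (W R Q W' : Subgroup G) (ω : G), VC V z W R → Ta V z W R ω → Te V z W R ω → LC V z Q W' →
  Nat.card Q = 2 ^ 13 → Nat.card W' = 2 ^ 7 → QL V z W R Q

def CqStmt : Prop := ∀ (G : Type u) [Group G] [Finite G] (V : Subgroup G) (z : G)
  (W R : Subgroup G) (ω : G) (Q : Subgroup G), Co V z W R ω Q → Cq V z W Q

def Xq1Stmt : Prop := ∀ (G : Type u) [Group G] [Finite G] (z : G) (Q : Subgroup G), LX Q z →
  Nat.card Q = 2 ^ 13 → (∀ c ∈ C1 z, (∀ q ∈ Q, ⁅c, q⁆ ∈ zpowers z) → c ∈ Q) →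
  ∃ (X A : Type u) (_ : Group X) (_ : Group A) (_ : Finite X) (_ : Finite A) (π : C1 z →* X)
    (α : Q →* A) (φ : X →* MulAut A) (s : A → ZMod 2), Qt z Q π α φ s ∧ XFq φ s

/-- a statement about all quotient data -/
def AllQ (P : ∀ {G X A : Type u} [Group G] [Group X] [Group A] (V : Subgroup G) (z : G)
    (W R Q : Subgroup G) (π : C1 z →* X) (α : Q →* A) (φ : X →* MulAut A) (s : A → ZMod 2)
    (ω : C1 z), Prop) : Prop :=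
  ∀ (G X A : Type u) [Group G] [Finite G] [Group X] [Finite X] [Group A] [Finite A]
    (V : Subgroup G) (z : G) (W R Q : Subgroup G) (π : C1 z →* X) (α : Q →* A)
    (φ : X →* MulAut A) (s : A → ZMod 2) (ω : C1 z), Co V z W R ω Q → Cq V z W Q →
    Qt z Q π α φ s → XFq φ s → P V z W R Q π α φ s ω

def XqaStmt : Prop := AllQ.{u} fun V z W _ _ π α φ s ω =>
  XFa φ s (ia α W) (im π (MM V z)) (im π V) (π ω)
def XqbStmt : Prop := AllQ.{u} fun V z _ _ _ π _ _ _ ω =>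
  ∃ T, XFb (im π (MM V z)) (im π V) T (π ω)
def XqcStmt : Prop := AllQ.{u} fun V z _ _ _ π _ _ _ ω => XFc (im π (MM V z)) (im π V) (π ω)

/-- a statement about all configurations `XF` -/
def AllX (P : ∀ {X A : Type u} [Group X] [Group A] (φ : X →* MulAut A) (W : Subgroup A)
    (H E T : Subgroup X) (ρ : X), Prop) : Prop :=
  ∀ (X A : Type u) [Group X] [Finite X] [Group A] [Finite A] (φ : X →* MulAut A)
    (s : A → ZMod 2) (W : Subgroup A) (H E T : Subgroup X) (ρ : X), XF φ s W H E T ρ →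
    P φ W H E T ρ

def X0Stmt : Prop := AllX.{u} fun φ _ _ E _ _ => ∀ e ∈ E, e ≠ 1 → ∃ e' ∈ E, e' ≠ 1 ∧ e * e' ≠ 1 ∧
  ∀ a, φ e a = a → ∃ b, φ e' a * a = φ e b * b
def X1Stmt : Prop := AllX.{u} fun _ _ _ E T ρ => ∀ e ∈ E, e ≠ 1 → T ≤ C1 e →
  C1 e ≤ NN (zpowers ρ)
def X2Stmt : Prop := AllX.{u} fun _ _ _ E T ρ => ∀ e ∈ E, e ≠ 1 → T ≤ C1 e → ∀ g,
  g * e * g⁻¹ ∈ NN (zpowers ρ) → g ∈ NN (zpowers ρ)
def X3Stmt : Prop := AllX.{u} fun _ _ _ _ _ ρ => pPrimeCore 2 _ ≤ zpowers ρ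
def XcStmt : Prop := AllX.{u} fun _ _ H _ _ ρ => ∃ L, XL H L ρ
def X4Stmt : Prop := AllX.{u} fun _ _ H _ _ ρ => ∀ L, XL H L ρ → L ≤ C1 ρ
def GuStmt : Prop := ∀ (X A : Type u) [Group X] [Finite X] [Group A] [Finite A]
  (φ : X →* MulAut A) (s : A → ZMod 2) (ρ : X), XFq φ s → ρ ^ 3 = 1 → (∀ a, φ ρ a = a → a = 1) →
  Nat.card (C1 ρ) ∣ 2 ^ 15 * 3 ^ 8 * 5 * 7 * 11
def XeStmt : Prop := AllX.{u} fun _ _ H _ _ ρ => ∀ L, XL H L ρ → L ≤ C1 ρ →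
  ∃ (S : Type u) (_ : Group S) (_ : Finite S) (θ : L →* S), XE L ρ θ

/-- the two survivors -/
def Sv (S : Type u) [Group S] : Prop := Spor.IsoM22 S ∨
  ∃ (F : Type) (_ : Field F) (_ : Fintype F), Fintype.card F = 9 ∧ Nonempty (S ≃* PSU 4 F 3)

def Sv1Stmt : Prop := ∀ (S : Type u) [Group S] [Finite S], IsSimpleGroup S → 128 ∣ Nat.card S →
  Nat.card S ∣ 2 ^ 7 * 3 ^ 7 * 5 * 7 * 11 → H9.GH.R2List S → False
def Sv2Stmt : Prop := ∀ (S : Type u) [Group S] [Finite S], IsSimpleGroup S → 128 ∣ Nat.card S →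
  Nat.card S ∣ 2 ^ 7 * 3 ^ 7 * 5 * 7 * 11 → H9.GH.GHList S → Sv S
def SvStmt : Prop := ∀ (S : Type u) [Group S] [Finite S], IsSimpleGroup S →
  ¬ IsMulCommutative S → 128 ∣ Nat.card S → Nat.card S ∣ 2 ^ 7 * 3 ^ 7 * 5 * 7 * 11 → Sv S

def XmStmt : Prop := ∀ (X S : Type u) [Group X] [Finite X] [Group S] [Finite S] (L : Subgroup X)
  (ρ : X) (θ : L →* S), XE L ρ θ → Spor.IsoM22 S →
  ∃ χ : X →* MulAut Spor.M22, Function.Surjective χ ∧ χ.ker = zpowers ρ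

def EndJStmt : Prop := AllQ.{u} fun {G} _ _ _ _ _ _ _ _ _ _ π _ _ _ ω =>
  ∀ χ : _ →* MulAut Spor.M22, Function.Surjective χ → χ.ker = zpowers (π ω) → IsOfJankoFourType G

def EndFStmt : Prop := AllQ.{u} fun {G X} _ _ _ _ _ _ _ _ _ π _ _ _ ω =>
  IsSimpleGroup G → ∀ (S : Type u) [Group S] [Finite S] (L : Subgroup X) (θ : L →* S),
    XE L (π ω) θ → (∃ (F : Type) (_ : Field F) (_ : Fintype F), Fintype.card F = 9 ∧
      Nonempty (S ≃* PSU 4 F 3)) → IsFi24' G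

def EndT1Stmt : Prop := ∀ (G : Type u) [Group G] [Finite G] (V : Subgroup G) (ρ : NN V →* M24) ψ,
  St V ρ → Tod V ρ ψ → H18.MaxOff.WC V → IsSimpleGroup G →
    ∀ Q W ω, LC V (ψ t0) Q W → LT V (ψ t0) Q W ω → LX Q (ψ t0) →
      (∀ R : Subgroup G, IsPGroup 2 R → R ≤ C1 (ψ t0) → C1 (ψ t0) ≤ NN R → R ≤ Q) →
      IsOfJankoFourType G ∨ IsFi24' G

end Stmts

end Cfsg.Agent.H35.RF
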