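import Cfsg.Agent.H35.HeckeGen
import Cfsg.Agent.H35.BNChamber
import Cfsg.Agent.H11.PermChar

/-!
The number of irreducible constituents of a character is the dimension of the centre of the
centralizer algebra; for the permutation character on the chambers of a finite BN-pair it is the
number of conjugacy classes of the Weyl group.
-/

set_option autoImplicit false

namespace Cfsg.Agent.H35

open Module H11

section Centre

variable {G : Type*} [Group G] [Fintype G] {Ω : Type*} [Fintype Ω] [DecidableEq Ω]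
  (π : G →* Matrix Ω Ω ℂ)

/-- The centre of the centralizer algebra. -/
def zc : Submodule ℂ (Matrix Ω Ω ℂ) where
  carrier := {M | (∀ g, Commute M (π g)) ∧ ∀ N, (∀ g, Commute N (π g)) → Commute M N}
  add_mem' ha hb := ⟨fun g => (ha.1 g).add_left (hb.1 g), fun N h => (ha.2 N h).add_left (hb.2 N h)⟩
  zero_mem' := ⟨fun _ => Commute.zero_left _, fun _ _ => Commute.zero_left _⟩
  smul_mem' c _ h := ⟨fun g => (h.1 g).smul_left c, fun N hN => (h.2 N hN).smul_left c⟩

/-- The image of a function on the group. -/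
noncomputable def ee (f : G → ℂ) : Matrix Ω Ω ℂ := ∑ g, f g⁻¹ • π g

variable {π}

theorem commute_ee {N : Matrix Ω Ω ℂ} (hN : ∀ g, Commute N (π g)) (f : G → ℂ) :
    Commute N (ee π f) := Commute.sum_right _ _ _ fun g _ => (hN g).smul_right _

theorem ee_mem {f : G → ℂ} (hf : IsClassFunction G f) : ee π f ∈ zc π := by
  refine ⟨fun k => ?_, fun N hN => (commute_ee hN f).symm⟩
  simp only [Commute, SemiconjBy, ee, Finset.sum_mul, Finset.mul_sum, smul_mul_assoc, mul_smul_comm,
    ← map_mul]
  rw [← Equiv.sum_comp (MulAut.conj k).toEquiv]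
  refine Finset.sum_congr rfl fun g _ => ?_
  have := hf g⁻¹ k
  simp [mul_assoc] at this
  simp [mul_assoc, this]

theorem sum_inv_mul (f : G → ℂ) {ψ : G → ℂ} (hψ : IsIrrCharacter G ψ) :
    ∑ g, f g⁻¹ * ψ g = Nat.card G * classInner f ψ := by
  rw [classInner_eq_sum_inv (isCharacter_of_irr hψ), mul_inv_cancel_left₀ (card_ne_zero G),
    ← Equiv.sum_comp (Equiv.inv G)]
  simp

theorem ee_mul {f ψ : G → ℂ} (hf : IsClassFunction G f) (hψ : IsIrrCharacter G ψ) :
    ee π ψ * ee π f = (Nat.card G * classInner f ψ / ψ 1) • ee π ψ := by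
  rw [← (commute_ee (ee_mem hf).1 ψ).eq]
  have e : ∀ g, ∑ k, (f g⁻¹ • π g) * (ψ k⁻¹ • π k) = ∑ k, (f g⁻¹ * ψ (g * k⁻¹)) • π k := fun g => by
    rw [← Equiv.sum_comp (Equiv.mulLeft g⁻¹)]
    refine Finset.sum_congr rfl fun k _ => ?_
    rw [smul_mul_assoc, mul_smul_comm, smul_smul, ← map_mul,
      classFun_mul_comm (isClassFunction_of_irr hψ) g]
    simp
  rw [ee, ee, Finset.sum_mul_sum, Finset.sum_congr rfl fun g _ => e g, Finset.sum_comm,
    Finset.smul_sum]
  refine Finset.sum_congr rfl fun k _ => ?_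
  rw [← Finset.sum_smul, sum_classFun_mul_irr_mul hψ (isClassFunction_comp_inv hf), smul_smul,
    sum_inv_mul f hψ]

theorem trace_ee {ψ : G → ℂ} (hψ : IsIrrCharacter G ψ) :
    (ee π ψ).trace = Nat.card G * classInner (fun g => (π g).trace) ψ := by
  rw [classInner_eq_sum_inv (isCharacter_of_irr hψ), mul_inv_cancel_left₀ (card_ne_zero G), ee,
    Matrix.trace_sum]
  exact Finset.sum_congr rfl fun g _ => by rw [Matrix.trace_smul, smul_eq_mul, mul_comm]

theorem ee_eq_zero {ψ : G → ℂ} (hψ : IsIrrCharacter G ψ)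
    (h : classInner (fun g => (π g).trace) ψ = 0) : ee π ψ = 0 := by
  have h1 := irr_apply_one_ne_zero hψ
  have h2 := card_ne_zero G
  have h3 : IsIdempotentElem (Matrix.toLin' ((ψ 1 / Nat.card G) • ee π ψ)) := by
    unfold IsIdempotentElem
    rw [End.mul_eq_comp, ← Matrix.toLin'_mul, smul_mul_assoc, mul_smul_comm,
      ee_mul (isClassFunction_of_irr hψ) hψ, classInner_irr_self hψ, smul_smul, smul_smul]
    congr 2
    field_simp
  have h4 := LinearMap.IsIdempotentElem.eq_zero_of_trace_eq_zero h3 (by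
    rw [Matrix.trace_toLin'_eq, Matrix.trace_smul, trace_ee hψ, h, mul_zero, smul_zero])
  rw [LinearEquiv.map_eq_zero_iff, smul_eq_zero] at h4
  exact h4.resolve_left (div_ne_zero h1 h2)

omit [Fintype G] in
theorem classFun_trace {M : Matrix Ω Ω ℂ} (hM : ∀ g, Commute M (π g)) :
    IsClassFunction G fun g => (M * π g).trace := fun g k => by
  simp only [map_mul]
  rw [← mul_assoc, Matrix.trace_mul_comm, ← mul_assoc, ← mul_assoc, ← (hM k⁻¹).eq, mul_assoc M,
    ← map_mul, inv_mul_cancel, map_one, mul_one]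

theorem sum_single (A C : Matrix Ω Ω ℂ) (x y : Ω) :
    ∑ a, (A * Matrix.single a x (1 : ℂ) * C : Matrix Ω Ω ℂ) a y = A.trace * C x y := by
  rw [Matrix.trace, Finset.sum_mul]
  refine Finset.sum_congr rfl fun a _ => ?_
  rw [Matrix.mul_apply, Finset.sum_eq_single x (fun b _ hb => by simp [Matrix.mul_apply, hb.symm])
    (by simp)]
  simp [Matrix.mul_apply, Matrix.single_apply]

theorem ee_trace {M : Matrix Ω Ω ℂ} (hM : M ∈ zc π) :
    ee π (fun g => (M * π g).trace) = ee π (fun g => (π g).trace) * M := by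
  ext x y
  have h1 : ∀ a, Commute M (∑ g, π g⁻¹ * Matrix.single a x (1 : ℂ) * π g) := fun a =>
    hM.2 _ fun k => by
      simp only [Commute, SemiconjBy, Finset.sum_mul, Finset.mul_sum]
      rw [← Equiv.sum_comp (Equiv.mulRight k⁻¹)]
      refine Finset.sum_congr rfl fun g _ => ?_
      simp only [Equiv.coe_mulRight, mul_inv_rev, inv_inv, mul_assoc, ← map_mul, inv_mul_cancel,
        mul_one]
      rw [map_mul, mul_assoc]
  have h2 := Finset.sum_congr rfl fun a (_ : a ∈ Finset.univ) => congrFun (congrFun (h1 a).eq a) y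
  simp only [Finset.mul_sum, Finset.sum_mul, Matrix.sum_apply] at h2
  rw [Finset.sum_comm, eq_comm, Finset.sum_comm, eq_comm] at h2
  simp only [← mul_assoc M, mul_assoc _ (π _) M, sum_single] at h2
  simpa [ee, Finset.sum_mul, Matrix.sum_apply] using h2

theorem finrank_zc : finrank ℂ (zc π) =
    Nat.card {χ : IrrCharacter G // classInner (fun g => (π g).trace) χ ≠ 0} := by
  classical
  have := Fintype.ofFinite (IrrCharacter G)
  have hc := card_ne_zero G
  have hθ : IsClassFunction G fun g => (π g).trace := by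
    simpa using classFun_trace (π := π) fun g => Commute.one_left _
  have h1 : LinearIndependent ℂ
      fun χ : {χ : IrrCharacter G // classInner (fun g => (π g).trace) χ ≠ 0} => ee π χ.1 := by
    refine Fintype.linearIndependent_iff.2 fun c h ψ => ?_
    have h2 := congrArg (fun M => (ee π ψ.1 * M).trace) h
    simp only [Finset.mul_sum, mul_smul_comm, ee_mul (isClassFunction_of_irr (Subtype.prop _)) ψ.1.2,
      classInner_irr_irr, mul_zero, Matrix.trace_zero, Subtype.val_inj] at h2
    rw [Finset.sum_eq_single ψ (fun b _ hb => by simp [hb]) (by simp)] at h2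
    simpa [trace_ee ψ.1.2, ψ.2, hc, irr_apply_one_ne_zero ψ.1.2] using h2
  rw [Nat.card_eq_fintype_card, ← finrank_span_eq_card h1]
  suffices e : zc π = _ by rw [e]
  refine le_antisymm (SetLike.le_def.2 fun M hM => ?_) (Submodule.span_le.2 ?_)
  · have h2 : (Nat.card G : ℂ) • M = ∑ χ : IrrCharacter G, χ.1 1 • (ee π χ * M) := by
      simp only [← smul_mul_assoc, ← Finset.sum_mul]
      rw [← one_mul M, ← smul_mul_assoc, one_mul M]
      congr 1
      simp only [ee, Finset.smul_sum, smul_smul]
      rw [Finset.sum_comm]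
      simp only [← Finset.sum_smul, sum_degree_mul_apply]
      rw [Finset.sum_eq_single 1 (fun b _ hb => by rw [regChar_of_ne_one (inv_ne_one.2 hb), zero_smul])
        (by simp), inv_one, regChar_one, map_one]
    rw [← Submodule.smul_mem_iff _ hc, h2]
    refine Submodule.sum_mem _ fun χ _ => Submodule.smul_mem _ _ ?_
    by_cases h3 : classInner (fun g => (π g).trace) χ = 0
    · rw [ee_eq_zero χ.2 h3, zero_mul]
      exact zero_mem _
    · rw [← Submodule.smul_mem_iff _ (div_ne_zero (mul_ne_zero hc h3) (irr_apply_one_ne_zero χ.2)),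
        ← smul_mul_assoc, ← ee_mul hθ χ.2, mul_assoc, ← ee_trace hM,
        ee_mul (classFun_trace hM.1) χ.2]
      exact Submodule.smul_mem _ _ (Submodule.subset_span ⟨⟨χ, h3⟩, rfl⟩)
  · rintro _ ⟨χ, rfl⟩
    exact ee_mem (isClassFunction_of_irr χ.1.2)

theorem constituent_iff {θ χ : G → ℂ} (hθ : IsCharacter G θ) (hχ : IsIrrCharacter G χ) :
    (∃ φ, IsCharacter G φ ∧ θ = χ + φ) ↔ classInner θ χ ≠ 0 := by
  refine ⟨?_, fun h => ⟨θ - χ, isCharacter_sub_irr hθ hχ h, by simp⟩⟩
  rintro ⟨φ, hφ, rfl⟩
  exact classInner_add_ne_zero (isCharacter_of_irr hχ) hφ (isCharacter_of_irr hχ)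
    (by rw [classInner_irr_self hχ]; exact one_ne_zero)

/-- Permutation matrices. -/
def permMat (G : Type*) [Group G] (Ω : Type*) [Fintype Ω] [DecidableEq Ω] [MulAction G Ω] :
    G →* Matrix Ω Ω ℂ where
  toFun g := Matrix.of fun x y => if x = g • y then 1 else 0
  map_one' := by ext x y; simp [Matrix.one_apply]
  map_mul' g k := by ext x y; simp [Matrix.mul_apply, mul_smul]

omit [Fintype G] in
theorem trace_permMat [MulAction G Ω] (g : G) : (permMat G Ω g).trace = permChar G Ω g := by
  rw [permChar_apply, Nat.card_eq_fintype_card, Fintype.card_subtype]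
  simp [permMat, Matrix.trace, eq_comm]

omit [Fintype G] in
theorem commute_permMat [MulAction G Ω] {M : Matrix Ω Ω ℂ} :
    (∀ g, Commute M (permMat G Ω g)) ↔ ∀ (g : G) x y, M (g • x) (g • y) = M x y := by
  refine forall_congr' fun g => ?_
  have e : ∀ x y, (M * permMat G Ω g) x y = M x (g • y) := fun x y => by
    simp [permMat, Matrix.mul_apply]
  have e' : ∀ x y, (permMat G Ω g * M) x y = M (g⁻¹ • x) y := fun x y => by
    simp [permMat, Matrix.mul_apply, ← inv_smul_eq_iff]
  refine ⟨fun h x y => by rw [← e, h.eq, e', inv_smul_smul], fun h => ?_⟩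
  ext x y
  rw [e, e', ← h (g⁻¹ • x), smul_inv_smul]

end Centre

namespace BN

open InvGen

variable {G : Type*} [Group G] (P : BNPair G)

/-- The square root of the index parameter. -/
noncomputable def sq (w : W P) : ℝ := √(ind P w : ℝ)

/-- The parameters of the Hecke algebra. -/
noncomputable def par (i : P.S) : ℝ := sq P ((gens P).s i) - (sq P ((gens P).s i))⁻¹

/-- The element of the Hecke algebra with given coordinates. -/
noncomputable def th : (W P → ℂ) →ₗ[ℂ] Matrix (G ⧸ P.B) (G ⧸ P.B) ℂ where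
  toFun v := Matrix.of fun x y => v (wdist P x y) / sq P (wdist P x y)
  map_add' u v := by ext x y; simp [add_div]
  map_smul' c v := by ext x y; simp [mul_div_assoc]

variable {P}

theorem th_apply (v : W P → ℂ) (x y : G ⧸ P.B) :
    th P v x y = v (wdist P x y) / sq P (wdist P x y) := rfl

variable [Fintype (G ⧸ P.B)]

theorem sq_ne (w : W P) : (sq P w : ℂ) ≠ 0 := by
  exact_mod_cast (Real.sqrt_pos.2 (by exact_mod_cast ind_pos w)).ne'

omit [Fintype (G ⧸ P.B)] in
theorem sq_sq (w : W P) : (sq P w : ℂ) ^ 2 = ind P w := by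
  have : sq P w ^ 2 = ind P w := Real.sq_sqrt (Nat.cast_nonneg _)
  exact_mod_cast this

theorem sq_inv (w : W P) : sq P w⁻¹ = sq P w := by rw [sq, sq, ind_inv]

theorem sq_up {i : P.S} {w : W P} (h : (gens P).len w ≤ (gens P).len ((gens P).s i * w)) :
    sq P ((gens P).s i * w) = sq P ((gens P).s i) * sq P w := by
  rw [sq, ind_s_mul_of_le h, Nat.cast_mul, Real.sqrt_mul (Nat.cast_nonneg _), sq, sq]

theorem hk : (gens P).HK (par P) := by
  refine ⟨exchange P, fun _ _ _ => s_mul_eq_mul_s, fun i j w e => ?_⟩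
  have key : ∀ w, (gens P).s i * w = w * (gens P).s j →
      (gens P).len w ≤ (gens P).len ((gens P).s i * w) → par P i = par P j := fun w e h => by
    have h1 := ind_s_mul_of_le h
    have h2 := ind_s_mul_of_le (i := j) (w := w⁻¹) (by rwa [← len_mul_s_eq, len_inv, ← e])
    rw [e, ← ind_inv, mul_inv_rev, inv_s, h2, ind_inv] at h1
    rw [par, par, sq, sq, Nat.eq_of_mul_eq_mul_right (ind_pos w) h1]
  rcases le_total ((gens P).len w) ((gens P).len ((gens P).s i * w)) with h | h
  · exact key w e h
  · exact key ((gens P).s i * w) (by rw [s_mul_s_cancel_left, e, s_mul_s_cancel_right])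
      (by rwa [s_mul_s_cancel_left])

theorem th_injective : Function.Injective (th P) := fun u v e => funext fun w => by
  obtain ⟨y, rfl⟩ := exists_wdist_eq ((1 : G) : G ⧸ P.B) w
  exact (div_left_inj' (sq_ne _)).1 (congrFun (congrFun e _) y)

theorem th_io (v : W P → ℂ) : th P (io (W P) v) = (th P v).transpose := by
  ext x y
  rw [Matrix.transpose_apply, th_apply, th_apply, io_apply, wdist_symm x y, sq_inv]

variable [DecidableEq (W P)]

omit [Fintype (G ⧸ P.B)] in
theorem th_single (w : W P) : th P (Pi.single w 1) = (sq P w : ℂ)⁻¹ • adj P ℂ w := by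
  ext x y
  rw [th_apply, Matrix.smul_apply, adj_apply, Pi.single_apply]
  split_ifs with h <;> simp [h]

variable [DecidableEq (G ⧸ P.B)]

theorem th_LL (i : P.S) (v : W P → ℂ) :
    th P ((gens P).LL (par P) i v) = th P (Pi.single ((gens P).s i) 1) * th P v := by
  have := finite_W (P := P)
  have up : ∀ w, (gens P).len w ≤ (gens P).len ((gens P).s i * w) →
      th P (Pi.single ((gens P).s i) 1) * th P (Pi.single w 1) =
        th P (Pi.single ((gens P).s i * w) 1) := fun w h => by
    rw [th_single, th_single, th_single, smul_mul_assoc, mul_smul_comm, adj_s_mul_of_le h,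
      smul_smul, sq_up h, Complex.ofReal_mul, mul_inv]
  have h2 : th P (Pi.single ((gens P).s i) 1) * th P (Pi.single ((gens P).s i) 1) =
      1 + (par P i : ℂ) • th P (Pi.single ((gens P).s i) 1) := by
    rw [th_single, smul_mul_assoc, mul_smul_comm, adj_s_mul_s, ← sq_sq, smul_add, smul_add,
      smul_smul, smul_smul, smul_smul, smul_smul, smul_smul, par]
    have := sq_ne ((gens P).s i)
    congr 1
    · rw [show (sq P ((gens P).s i) : ℂ)⁻¹ * (sq P ((gens P).s i) : ℂ)⁻¹ *
        (sq P ((gens P).s i) : ℂ) ^ 2 = 1 by field_simp, one_smul]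
    · congr 1
      push_cast
      field_simp
  have key : th P ∘ₗ (gens P).LL (par P) i =
      LinearMap.mulLeft ℂ (th P (Pi.single ((gens P).s i) 1)) ∘ₗ th P := by
    refine (Pi.basisFun ℂ (W P)).ext fun w => ?_
    simp only [Pi.basisFun_apply, LinearMap.comp_apply, LinearMap.mulLeft_apply, LL_single, map_add,
      map_smul]
    rcases len_s_mul i w with h | h
    · rw [dc_of_up h, zero_smul, add_zero, up w (by omega)]
    · have h3 := up ((gens P).s i * w) (by rw [s_mul_s_cancel_left]; omega)
      rw [s_mul_s_cancel_left] at h3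
      rw [dc, if_pos (by omega), ← h3, ← mul_assoc, h2, add_mul, one_mul, smul_mul_assoc]
  exact LinearMap.congr_fun key v

theorem th_RR (i : P.S) (v : W P → ℂ) :
    th P ((gens P).RR (par P) i v) = th P v * th P (Pi.single ((gens P).s i) 1) := by
  have e : io (W P) (Pi.single ((gens P).s i) 1) = Pi.single ((gens P).s i) 1 := by
    ext x
    simp [io_apply, Pi.single_apply, inv_eq_iff_eq_inv]
  rw [RR, End.mul_apply, End.mul_apply, th_io, th_LL, th_io, Matrix.transpose_mul,
    Matrix.transpose_transpose, ← th_io, e]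

omit [DecidableEq (W P)] in
theorem commute_iff {M : Matrix (G ⧸ P.B) (G ⧸ P.B) ℂ} :
    (∀ g, Commute M (permMat G (G ⧸ P.B) g)) ↔ ∃ v, th P v = M := by
  rw [commute_permMat]
  constructor
  · intro h
    choose f hf using exists_wdist_eq ((1 : G) : G ⧸ P.B)
    refine ⟨fun w => M ((1 : G) : G ⧸ P.B) (f w) * sq P w, ?_⟩
    ext x y
    obtain ⟨g, h1, h2⟩ := exists_smul_eq_of_wdist_eq (hf (wdist P x y))
    rw [th_apply, mul_div_cancel_right₀ _ (sq_ne _), ← h g, h1, h2]
  · rintro ⟨v, rfl⟩ g x y
    rw [th_apply, th_apply, wdist_smul]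

theorem map_ZZ : ((gens P).ZZ (par P)).map (th P) = zc (permMat G (G ⧸ P.B)) := by
  have := finite_W (P := P)
  have := Fintype.ofFinite (W P)
  refine le_antisymm ?_ fun M hM => ?_
  · rintro _ ⟨v, hv, rfl⟩
    refine ⟨commute_iff.2 ⟨v, rfl⟩, fun N hN => ?_⟩
    obtain ⟨u, rfl⟩ := commute_iff.1 hN
    have h1 : ∀ i, Commute (th P v) (th P (Pi.single ((gens P).s i) 1)) := fun i => by
      rw [Commute, SemiconjBy, ← th_RR, ← th_LL, mem_ZZ.1 hv]
    have h2 : ∀ w, Commute (th P v) (th P (Pi.single w 1)) := fun w => by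
      induction w using (gens P).induction_left with
      | h1 =>
        rw [th_single, adj_one]
        exact (Commute.one_right _).smul_right _
      | hs i w hw ih =>
        have := th_LL i (Pi.single w 1)
        rw [LL_single, dc_of_up hw, zero_smul, add_zero] at this
        exact this ▸ (h1 i).mul_right ih
    rw [← Finset.univ_sum_single u, map_sum]
    refine Commute.sum_right _ _ _ fun w _ => ?_
    rw [show Pi.single w (u w) = u w • (Pi.single w 1 : W P → ℂ) by
      rw [← Pi.single_smul, smul_eq_mul, mul_one], map_smul]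
    exact (h2 w).smul_right _
  · obtain ⟨v, rfl⟩ := commute_iff.1 hM.1
    refine ⟨v, mem_ZZ.2 fun i => th_injective ?_, rfl⟩
    rw [th_LL, th_RR]
    exact (hM.2 _ (commute_iff.2 ⟨_, rfl⟩)).eq.symm

end BN

/-- The permutation character on the cosets of `B` has as many distinct irreducible constituents
as the Weyl group has conjugacy classes. -/
theorem BN.card_constituents {G : Type*} [Group G] [Finite G] (P : BNPair G) :
    Nat.card {χ : IrrCharacter G // ∃ φ, IsCharacter G φ ∧ permChar G (G ⧸ P.B) = χ.1 + φ} =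
      Nat.card (ConjClasses (BN.W P)) := by
  classical
  have := Fintype.ofFinite G
  have := Fintype.ofFinite (G ⧸ P.B)
  have := Fintype.ofFinite (BN.W P)
  rw [← BN.hk.finrank_ZZ, ← LinearEquiv.finrank_eq (Submodule.equivMapOfInjective _
    BN.th_injective _).symm, BN.map_ZZ, finrank_zc, funext (trace_permMat (G := G) (Ω := G ⧸ P.B))]
  exact Nat.card_congr (Equiv.subtypeEquivRight fun χ =>
    constituent_iff (isCharacter_permChar _) χ.2)

end Cfsg.Agent.H35
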