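import Cfsg.Agent.H35.InvGen
import Cfsg.Agent.H11.Irr

/-!
The generic Hecke algebra of a finite Coxeter group with real parameters: the dimension of its
centre is the number of conjugacy classes of the group.
-/

set_option autoImplicit false

namespace Cfsg.Agent.H35

open Module

theorem isOpen_le_finrank_range {V V' : Type*} [AddCommGroup V] [Module ℂ V] [NormedAddCommGroup V']
    [NormedSpace ℂ V'] [FiniteDimensional ℂ V'] (f : ℝ → V →ₗ[ℂ] V')
    (hf : ∀ v, Continuous fun t => f t v) (n : ℕ) :
    IsOpen {t | n ≤ finrank ℂ (LinearMap.range (f t))} := by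
  have h : ∀ t, n ≤ finrank ℂ (LinearMap.range (f t)) ↔ (n : Cardinal) ≤ (f t).rank := fun t => by
    rw [LinearMap.rank, ← finrank_eq_rank, Nat.cast_le]
  simp only [h, LinearMap.le_rank_iff_exists_linearIndependent_finset, Set.ofPred_exists,
    ← exists_prop]
  refine isOpen_biUnion fun s _ => ?_
  exact isOpen_setOfPred_linearIndependent.preimage
    (continuous_pi fun x : (s : Set V) => hf (x : V))

namespace InvGen

variable {B W : Type*} [Group W] (X : InvGen B W)

/-- The data defining a generic Hecke algebra with real parameters `α`. -/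
structure HK (α : B → ℝ) : Prop where
  exch : X.Exchange
  fold : ∀ i j w, X.len w ≤ X.len (X.s i * w) →
    X.len (X.s i * (w * X.s j)) ≤ X.len (w * X.s j) → X.s i * w = w * X.s j
  compat : ∀ i j w, X.s i * w = w * X.s j → α i = α j

/-- The diagonal coefficient. -/
noncomputable def dc (α : B → ℝ) (i : B) (w : W) : ℂ :=
  if X.len (X.s i * w) < X.len w then α i else 0

/-- Left multiplication by a generator. -/
noncomputable def LL (α : B → ℝ) (i : B) : End ℂ (W → ℂ) where
  toFun v x := v (X.s i * x) + X.dc α i x * v x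
  map_add' u v := by ext x; simp; ring
  map_smul' c v := by ext x; simp; ring

/-- Inversion. -/
def io (W : Type*) [Group W] : End ℂ (W → ℂ) := LinearMap.funLeft ℂ ℂ fun x => x⁻¹

/-- Right multiplication by a generator. -/
noncomputable def RR (α : B → ℝ) (i : B) : End ℂ (W → ℂ) := io W * X.LL α i * io W

/-- Left multiplication by a basis element. -/
noncomputable def AA (α : B → ℝ) (w : W) : End ℂ (W → ℂ) :=
  ((X.exists_isRed w).choose.map (X.LL α)).prod

/-- The centre. -/
noncomputable def ZZ (α : B → ℝ) : Submodule ℂ (W → ℂ) :=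
  LinearMap.ker (LinearMap.pi fun i => X.LL α i - X.RR α i)

/-- The Casimir map. -/
noncomputable def Cas [Fintype W] (α : B → ℝ) : End ℂ (W → ℂ) :=
  ∑ w, X.AA α w * (io W * X.AA α w * io W)

variable {X} {α : B → ℝ}

theorem LL_apply (i : B) (v : W → ℂ) (x : W) :
    X.LL α i v x = v (X.s i * x) + X.dc α i x * v x := rfl

theorem io_apply (v : W → ℂ) (x : W) : io W v x = v x⁻¹ := rfl

theorem io_io : io W * io W = 1 := by
  ext v x
  simp [io_apply]

theorem RR_apply (i : B) (v : W → ℂ) (x : W) :
    X.RR α i v x = v (x * X.s i) + X.dc α i x⁻¹ * v x := by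
  simp [RR, io_apply, LL_apply]

theorem mem_ZZ {v : W → ℂ} : v ∈ X.ZZ α ↔ ∀ i, X.LL α i v = X.RR α i v := by
  simp [ZZ, funext_iff, sub_eq_zero]

theorem dc_of_up {i : B} {w : W} (h : X.len (X.s i * w) = X.len w + 1) : X.dc α i w = 0 :=
  if_neg (by omega)

theorem conj_dc (i : B) (w : W) : star (X.dc α i w) = X.dc α i w := by
  unfold dc
  split_ifs <;> simp

theorem dc_smul (t : ℝ) (i : B) (w : W) : X.dc (t • α) i w = t * X.dc α i w := by
  unfold dc
  split_ifs <;> simp

section single

variable [DecidableEq W]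

theorem LL_single (i : B) (w : W) :
    X.LL α i (Pi.single w 1) = Pi.single (X.s i * w) 1 + X.dc α i w • Pi.single w 1 := by
  ext x
  have : X.s i * x = w ↔ x = X.s i * w := ⟨fun h => by simp [← h], fun h => by simp [h]⟩
  simp only [LL_apply, Pi.single_apply, Pi.add_apply, Pi.smul_apply, smul_eq_mul, this]
  congr 1
  split_ifs with h1
  · rw [h1]
  · simp

theorem RR_single (i : B) (w : W) :
    X.RR α i (Pi.single w 1) = Pi.single (w * X.s i) 1 + X.dc α i w⁻¹ • Pi.single w 1 := by
  ext x
  have : x * X.s i = w ↔ x = w * X.s i := ⟨fun h => by simp [← h], fun h => by simp [h]⟩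
  simp only [RR_apply, Pi.single_apply, Pi.add_apply, Pi.smul_apply, smul_eq_mul, this]
  congr 1
  split_ifs with h1
  · rw [h1]
  · simp

theorem prod_single {l : List B} (hl : X.IsRed l) :
    (l.map (X.LL α)).prod (Pi.single 1 1) = Pi.single (X.wp l) 1 := by
  induction l with
  | nil => rfl
  | cons i l ih =>
    rw [List.map_cons, List.prod_cons, End.mul_apply, ih hl.tail, LL_single, dc_of_up hl.len_cons,
      zero_smul, add_zero, wp_cons]

theorem AA_single (w : W) : X.AA α w (Pi.single 1 1) = Pi.single w 1 := by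
  rw [AA, prod_single (X.exists_isRed w).choose_spec.1, (X.exists_isRed w).choose_spec.2]

theorem ext_one [Finite W] {f g : End ℂ (W → ℂ)} (hf : ∀ i, Commute f (X.RR α i))
    (hg : ∀ i, Commute g (X.RR α i)) (h : f (Pi.single 1 1) = g (Pi.single 1 1)) : f = g := by
  refine (Pi.basisFun ℂ W).ext fun w => ?_
  rw [Pi.basisFun_apply]
  induction w using X.induction_right with
  | h1 => exact h
  | hs i w hw ih =>
    have e : (Pi.single (w * X.s i) 1 : W → ℂ) = X.RR α i (Pi.single w 1) := by
      rw [RR_single, dc_of_up (by rw [← len_mul_s_eq, len_inv, hw]), zero_smul, add_zero]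
    rw [e, ← End.mul_apply, ← End.mul_apply, (hf i).eq, (hg i).eq, End.mul_apply, End.mul_apply, ih]

end single

/-- Families of operators depending continuously on a real parameter. -/
def Cts (f : ℝ → End ℂ (W → ℂ)) : Prop :=
  ∀ v : ℝ → W → ℂ, Continuous v → Continuous fun t => f t (v t)

omit [Group W] in
theorem Cts.mul {f g : ℝ → End ℂ (W → ℂ)} (hf : Cts f) (hg : Cts g) : Cts fun t => f t * g t :=
  fun v hv => hf _ (hg v hv)

theorem cts_io : Cts fun _ => io W := fun _ hv =>
  continuous_pi fun x => (continuous_apply x⁻¹).comp hv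

theorem cts_LL (i : B) : Cts fun t => X.LL (t • α) i := fun v hv => continuous_pi fun x => by
  simp only [LL_apply, dc_smul]
  fun_prop

theorem cts_RR (i : B) : Cts fun t => X.RR (t • α) i := (cts_io.mul (cts_LL i)).mul cts_io

theorem cts_AA (w : W) : Cts fun t => X.AA (t • α) w := by
  unfold AA
  induction (X.exists_isRed w).choose with
  | nil => exact fun v hv => hv
  | cons i l ih => exact (cts_LL i).mul ih

theorem cts_Cas [Fintype W] : Cts fun t => X.Cas (t • α) := fun v hv => by
  simp only [Cas, LinearMap.sum_apply]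
  exact continuous_finsetSum _ fun w _ =>
    ((cts_AA w).mul ((cts_io.mul (cts_AA w)).mul cts_io)) v hv

theorem ZZ_zero : X.ZZ (0 : B → ℝ) = H11.classFunSubmodule W := by
  ext v
  have h0 : ∀ i w, X.dc (0 : B → ℝ) i w = 0 := fun i w => by simp [dc]
  simp only [mem_ZZ, funext_iff, LL_apply, RR_apply, h0, zero_mul, add_zero,
    H11.mem_classFunSubmodule]
  refine ⟨fun h g k => ?_, fun h i x => H11.classFun_mul_comm h _ _⟩
  induction k using X.induction_left with
  | h1 => simp
  | hs i w _ ih =>
    rw [← ih, mul_assoc, mul_assoc, h]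
    simp [mul_assoc, X.s_mul_s]

theorem adj_LL [Fintype W] (i : B) (u v : W → ℂ) :
    star u ⬝ᵥ X.LL α i v = star (X.LL α i u) ⬝ᵥ v := by
  simp only [dotProduct, Pi.star_apply, LL_apply, star_add, star_mul', conj_dc, mul_add, add_mul,
    Finset.sum_add_distrib]
  congr 1
  · rw [← Equiv.sum_comp (Equiv.mulLeft (X.s i))]
    simp
  · exact Finset.sum_congr rfl fun x _ => by ring

namespace HK

variable (h : X.HK α)
include h

theorem smul (t : ℝ) : X.HK (t • α) :=
  ⟨h.exch, h.fold, fun i j w e => by simp [h.compat i j w e]⟩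

theorem dc_eq {i j : B} {x : W} (hne : X.s i * x ≠ x * X.s j) :
    X.dc α i (x * X.s j) = X.dc α i x := by
  refine if_congr ⟨fun h1 => ?_, fun h1 => ?_⟩ rfl rfl
  · by_contra h2
    exact hne (h.fold i j x (not_lt.1 h2) h1.le)
  · by_contra h2
    have := h.fold i j (x * X.s j) (not_lt.1 h2) (by simpa using h1.le)
    exact hne (by rw [← X.s_mul_s_cancel_right j (X.s i * x), mul_assoc (X.s i), this]; simp)

theorem comm (i j : B) : Commute (X.LL α i) (X.RR α j) := by
  ext1 v
  funext x
  simp only [End.mul_apply, LL_apply, RR_apply, mul_assoc]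
  by_cases e : X.s i * x = x * X.s j
  · have h1 : X.dc α j x⁻¹ = X.dc α i x := by
      rw [dc, dc, ← len_mul_s_eq, len_inv, e, h.compat i j x e]
    have h2 : X.dc α j (X.s i * x)⁻¹ = X.dc α i (x * X.s j) := by
      rw [dc, dc, ← len_mul_s_eq, len_inv, mul_assoc, e, h.compat i j x e]
    rw [h1, h2, e]
  · have h2 : X.dc α j (X.s i * x)⁻¹ = X.dc α j x⁻¹ := by
      rw [mul_inv_rev, inv_s]
      refine h.dc_eq fun e' => e ?_
      simpa using (congrArg (·⁻¹) e').symm
    rw [h.dc_eq e, h2]
    ring

theorem AA_comm (w : W) (j : B) : Commute (X.AA α w) (X.RR α j) :=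
  Commute.list_prod_left _ _ fun x hx => by
    obtain ⟨i, -, rfl⟩ := List.mem_map.1 hx
    exact h.comm i j

variable [Fintype W]

theorem AA_one : X.AA α 1 = 1 := by
  classical
  exact ext_one (h.AA_comm 1) (fun _ => Commute.one_left _) (AA_single 1)

theorem LL_mul (i : B) (w : W) :
    X.LL α i * X.AA α w = X.AA α (X.s i * w) + X.dc α i w • X.AA α w := by
  classical
  refine ext_one (fun j => (h.comm i j).mul_left (h.AA_comm w j))
    (fun j => (h.AA_comm _ j).add_left ((h.AA_comm w j).smul_left _)) ?_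
  simp [AA_single, LL_single]

theorem mul_LL (i : B) (w : W) :
    X.AA α w * X.LL α i = X.AA α (w * X.s i) + X.dc α i w⁻¹ • X.AA α w := by
  classical
  refine ext_one (fun j => (h.AA_comm w j).mul_left (h.comm i j))
    (fun j => (h.AA_comm _ j).add_left ((h.AA_comm w j).smul_left _)) ?_
  have e : X.LL α i (Pi.single 1 1) = X.RR α i (Pi.single 1 1) := by simp [LL_single, RR_single]
  rw [End.mul_apply, e, ← End.mul_apply, (h.AA_comm w i).eq]
  simp [AA_single, RR_single]

theorem RR_mul (i : B) (w : W) : X.RR α i * (io W * X.AA α w * io W) =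
    io W * X.AA α (X.s i * w) * io W + X.dc α i w • (io W * X.AA α w * io W) := by
  calc X.RR α i * (io W * X.AA α w * io W)
      = io W * (X.LL α i * (io W * io W) * X.AA α w) * io W := by simp only [RR, mul_assoc]
    _ = _ := by rw [io_io, mul_one, h.LL_mul, mul_add, add_mul, mul_smul_comm, smul_mul_assoc]

theorem up_left {i : B} {w : W} (hw : X.len (X.s i * w) = X.len w + 1) :
    X.AA α (X.s i * w) = X.LL α i * X.AA α w := by
  rw [h.LL_mul, dc_of_up hw, zero_smul, add_zero]

theorem up_inv {i : B} {w : W} (hw : X.len (X.s i * w) = X.len w + 1) :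
    X.AA α (X.s i * w)⁻¹ = X.AA α w⁻¹ * X.LL α i := by
  rw [h.mul_LL, inv_inv, dc_of_up hw, zero_smul, add_zero, mul_inv_rev, inv_s]

theorem range_le : LinearMap.range (X.Cas α) ≤ X.ZZ α := by
  rintro _ ⟨v, rfl⟩
  refine mem_ZZ.2 fun i => ?_
  rw [← End.mul_apply, ← End.mul_apply]
  congr 1
  simp only [Cas, Finset.mul_sum]
  have e : ∀ w, X.RR α i * (X.AA α w * (io W * X.AA α w * io W)) =
      X.AA α w * (X.RR α i * (io W * X.AA α w * io W)) := fun w => by
    rw [← mul_assoc, ← (h.AA_comm w i).eq, mul_assoc]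
  simp only [e, h.RR_mul, ← mul_assoc (X.LL α i), h.LL_mul, add_mul, mul_add, Finset.sum_add_distrib,
    smul_mul_assoc, mul_smul_comm]
  congr 1
  rw [← Equiv.sum_comp (Equiv.mulLeft (X.s i))]
  simp

theorem of_mem {v : W → ℂ} (hv : v ∈ X.ZZ α) (w : W) :
    (io W * X.AA α w * io W) v = X.AA α w⁻¹ v := by
  induction w using X.induction_left with
  | h1 => rw [inv_one, h.AA_one, mul_one, io_io]
  | hs i w hw ih =>
    have := h.RR_mul i w
    rw [dc_of_up hw, zero_smul, add_zero] at this
    rw [← this, End.mul_apply, ih, ← End.mul_apply, ← (h.AA_comm _ i).eq, h.up_inv hw,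
      End.mul_apply, End.mul_apply, mem_ZZ.1 hv]

theorem adj_AA (w : W) (u v : W → ℂ) : star u ⬝ᵥ X.AA α w v = star (X.AA α w⁻¹ u) ⬝ᵥ v := by
  induction w using X.induction_left generalizing u with
  | h1 => simp [h.AA_one]
  | hs i w hw ih => rw [h.up_left hw, h.up_inv hw, End.mul_apply, adj_LL, ih, End.mul_apply]

open scoped ComplexOrder in
theorem eq_zero {v : W → ℂ} (hv : v ∈ X.ZZ α) (h0 : X.Cas α v = 0) : v = 0 := by
  have h1 : ∑ w, star (X.AA α w⁻¹ v) ⬝ᵥ X.AA α w⁻¹ v = 0 := by
    have := congrArg (star v ⬝ᵥ ·) h0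
    simp only [Cas, LinearMap.sum_apply, dotProduct_sum, dotProduct_zero] at this
    rw [← this]
    exact Finset.sum_congr rfl fun w _ => by rw [End.mul_apply, h.of_mem hv, h.adj_AA w]
  have h2 := (Finset.sum_eq_zero_iff_of_nonneg fun w _ => dotProduct_star_self_nonneg _).1 h1 1
    (Finset.mem_univ _)
  rwa [inv_one, h.AA_one, dotProduct_star_self_eq_zero] at h2

theorem finrank_range : finrank ℂ (LinearMap.range (X.Cas α)) = finrank ℂ (X.ZZ α) := by
  refine le_antisymm (Submodule.finrank_mono h.range_le) ?_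
  rw [← LinearMap.finrank_range_of_inj (f := (X.Cas α).domRestrict (X.ZZ α))
    (LinearMap.ker_eq_bot.1 (eq_bot_iff.2 fun v hv => Subtype.ext (h.eq_zero v.2 hv)))]
  exact Submodule.finrank_mono (LinearMap.range_domRestrict_le_range _ _)

theorem finrank_ZZ [Finite B] : finrank ℂ (X.ZZ α) = Nat.card (ConjClasses W) := by
  have := Fintype.ofFinite B
  have h1 : IsLocallyConstant fun t : ℝ => finrank ℂ (X.ZZ (t • α)) := by
    refine IsLocallyConstant.iff_isOpen_fiber.2 fun n => ?_
    have o1 := isOpen_le_finrank_range (fun t : ℝ => X.Cas (t • α))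
      (fun v => cts_Cas _ continuous_const) n
    have o2 := isOpen_le_finrank_range
      (fun t : ℝ => LinearMap.pi fun i => X.LL (t • α) i - X.RR (t • α) i)
      (fun v => continuous_pi fun i =>
        (cts_LL i _ continuous_const).sub (cts_RR i _ continuous_const)) (finrank ℂ (W → ℂ) - n)
    convert o1.inter o2 using 1
    ext t
    have : _ + finrank ℂ (X.ZZ (t • α)) = _ := LinearMap.finrank_range_add_finrank_ker
      (LinearMap.pi fun i => X.LL (t • α) i - X.RR (t • α) i)
    simp only [Set.mem_preimage, Set.mem_singleton_iff, Set.mem_inter_iff, Set.mem_ofPred_eq,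
      (h.smul t).finrank_range]
    omega
  have h2 : finrank ℂ (X.ZZ ((1 : ℝ) • α)) = finrank ℂ (X.ZZ ((0 : ℝ) • α)) :=
    h1.apply_eq_of_preconnectedSpace 1 0
  rw [one_smul, zero_smul] at h2
  rw [h2, ZZ_zero, H11.finrank_classFunSubmodule]

end HK

end InvGen

end Cfsg.Agent.H35
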