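import Cfsg.Agent.H35.RfQ
import Cfsg.Agent.H42.Code

/-! Project RF: assembly of the end of the cocode case. -/

set_option autoImplicit false

namespace Cfsg.Agent.H35.RF

open Cfsg Subgroup Cfsg.Agent.H42 Cfsg.Agent.H18.Rf
open scoped Pointwise symmDiff

universe u

theorem endX (xc : XcStmt.{u}) (x4 : X4Stmt.{u}) (xe : XeStmt.{u}) {X A : Type u} [Group X]
    [Finite X] [Group A] [Finite A] {φ : X →* MulAut A} {s : A → ZMod 2} {W : Subgroup A}
    {H E T : Subgroup X} {ρ : X} (h : XF φ s W H E T ρ) :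
    ∃ (L : Subgroup X) (S : Type u) (_ : Group S) (_ : Finite S) (θ : L →* S), XE L ρ θ := by
  obtain ⟨L, hL⟩ := xc X A φ s W H E T ρ h
  exact ⟨L, xe X A φ s W H E T ρ h L hL (x4 X A φ s W H E T ρ h L hL)⟩

theorem endT1 (kit : KitTStmt.{u}) (va : VaTStmt.{u}) (vb : VbTStmt.{u}) (vc : VcTStmt.{u})
    (vd : VdTStmt.{u}) (ta : TaStmt.{u}) (tb : TbStmt.{u}) (tc : TcStmt.{u}) (td : TdStmt.{u})
    (te : TeStmt.{u}) (tf : TfStmt.{u}) (id : IdStmt.{u}) (cq : CqStmt.{u}) (xq1 : Xq1Stmt.{u})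
    (xqa : XqaStmt.{u}) (xqb : XqbStmt.{u}) (xqc : XqcStmt.{u}) (xc : XcStmt.{u})
    (x4 : X4Stmt.{u}) (xe : XeStmt.{u}) (sv : SvStmt.{u}) (xm : XmStmt.{u}) (ej : EndJStmt.{u})
    (ef : EndFStmt.{u}) : EndT1Stmt.{u} := by
  intro G _ _ V ρ ψ st tod wc hs Q W' ω' lc lt lx o2
  obtain ⟨ω, tz⟩ := (kit G V ρ ψ st tod).2.2.2.2.2
  have hvc : VC V (ψ t0) (WT ψ) (RT V ρ) :=
    { toVa := va G V ρ ψ ω tz, toVb := vb G V ρ ψ ω tz, toVc := vc G V ρ ψ ω tz,
      toVd := vd G V ρ ψ ω tz }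
  have hta := ta G V ρ ψ ω tz
  have hte := te G V ρ ψ ω tz
  have co : Co V (ψ t0) (WT ψ) (RT V ρ) ω Q :=
    ⟨hvc, hta, tb G V ρ ψ ω tz, tc G V ρ ψ ω tz, td G V ρ ψ ω tz, hte, tf G V ρ ψ ω tz,
      id G V _ _ _ Q W' ω hvc hta hte lc lt.cQ lt.cW, wc, lx, lt.cQ, o2⟩
  have hq := cq G V _ _ _ ω Q co
  obtain ⟨X, A, _, _, _, _, π, α, φ, s, qt, xq⟩ := xq1 G (ψ t0) Q lx lt.cQ hq.kerA
  let w : C1 (ψ t0) := ⟨ω, hta.om.2⟩
  obtain ⟨T, hb⟩ := xqb G X A V _ _ _ Q π α φ s w co hq qt xq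
  have xf : XF φ s (ia α (WT ψ)) (im π (MM V (ψ t0))) (im π V) T (π w) :=
    { toXFq := xq, toXFa := xqa G X A V _ _ _ Q π α φ s w co hq qt xq, toXFb := hb,
      toXFc := xqc G X A V _ _ _ Q π α φ s w co hq qt xq }
  obtain ⟨L, S, _, _, θ, he⟩ := endX xc x4 xe xf
  rcases sv S he.simple he.nonab he.seven he.dvd with h | h
  · obtain ⟨χ, h1, h2⟩ := xm X S L _ θ he h
    exact Or.inl (ej G X A V _ _ _ Q π α φ s w co hq qt xq χ h1 h2)
  · exact Or.inr (ef G X A V _ _ _ Q π α φ s w co hq qt xq hs S L θ he h)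

section Tr

variable {G : Type u} [Group G] {V : Subgroup G}

/-- change of coordinates -/
noncomputable def trρ (ρ : NN V →* M24) (g : M24) : NN V →* M24 :=
  (MulAut.conj g⁻¹).toMonoidHom.comp ρ

theorem trρ_apply (ρ : NN V →* M24) (g : M24) (n : NN V) : trρ ρ g n = g⁻¹ * ρ n * g := by
  simp [trρ]

theorem St.tr {ρ : NN V →* M24} (h : St V ρ) (g : M24) : St V (trρ ρ g) where
  el := h.el
  card := h.card
  cen := h.cen
  sur := (MulAut.conj g⁻¹).surjective.comp h.sur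
  ker n := by
    rw [← h.ker, trρ_apply]
    constructor
    · intro e
      have : ρ n = g * (g⁻¹ * ρ n * g) * g⁻¹ := by group
      rw [this, e]; group
    · intro e
      rw [e]; group

theorem card_msmul (g : M24) (c : Finset GolayPt) : (g • c).card = c.card :=
  Finset.card_smul_finset g c

theorem Tod.tr {ρ : NN V →* M24} {ψ : Finset GolayPt → G} (h : Tod V ρ ψ) (g : M24) :
    Tod V (trρ ρ g) (fun c => ψ (g • c)) where
  add c d hc hd := by
    rw [msmul_symmDiff]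
    exact h.add _ _ (by rwa [card_msmul]) (by rwa [card_msmul])
  mem c hc := h.mem _ (by rwa [card_msmul])
  sur v hv := by
    obtain ⟨c, hc, rfl⟩ := h.sur v hv
    exact ⟨g⁻¹ • c, by rwa [card_msmul], by rw [smul_inv_smul]⟩
  ker c hc := by
    rw [h.ker _ (by rwa [card_msmul])]
    constructor
    · intro e
      have := e.smul (g⁻¹).2
      have e2 : ((g⁻¹ : M24) : Equiv.Perm GolayPt) • (g • c) = g⁻¹ • (g • c) := rfl
      rwa [e2, inv_smul_smul] at this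
    · exact fun e => e.smul g.2
  act n c hc := by
    rw [h.act n _ (by rwa [card_msmul]), trρ_apply, mul_smul, mul_smul, smul_inv_smul]

end Tr

theorem card_t0 : t0.card = 4 := by
  rw [t0, card_toSet (by norm_num)]
  decide +kernel

theorem exists_t0 {t : Finset GolayPt} (ht : t.card = 4) : ∃ g : M24, g • t0 = t := by
  have := orbit_finset (s := t0) (by rw [card_t0]; norm_num)
  have h2 : t ∈ MulAction.orbit M24 t0 := by
    rw [this]
    exact ht.trans card_t0.symm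
  exact h2

theorem endT0 (h : EndT1Stmt.{u}) : EndT0Stmt.{u} := by
  intro G _ _ V ρ ψ st tod wc hs t ht Q W ω lc lt lx _ o2
  obtain ⟨g, rfl⟩ := exists_t0 ht
  exact h G V (trρ ρ g) (fun c => ψ (g • c)) (St.tr st g) (Tod.tr tod g) wc hs Q W ω lc lt lx o2

theorem qt_of (h : Qt0Stmt.{u}) : QtStmt.{u} := by
  intro G _ _ V ρ ψ st tod t ht
  obtain ⟨g, rfl⟩ := exists_t0 ht
  exact h G V (trρ ρ g) (fun c => ψ (g • c)) (St.tr st g) (Tod.tr tod g)

end Cfsg.Agent.H35.RF
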