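import Cfsg.Agent.H35.Sp4Rep

/-! Representations `SL₂(K) → Sp₄(F)` in the defining characteristic. -/

set_option autoImplicit false

namespace Cfsg.Agent.H35.Sp4

open Matrix Cfsg.Geo Cfsg.Agent.H25 Cfsg.Agent.H25.S4 Cfsg.Agent.H82
open scoped MatrixGroups

universe u

variable {F K : Type*} [Field F] [Field K] {r : SL(2, K) →* M4 F}

lemma add_self_zero (h2 : (2 : F) ≠ 0) {z : M4 F} (h : z + z = 0) : z = 0 :=
  (smul_eq_zero.1 (by rw [two_smul]; exact h)).resolve_left h2

/-- A quadratic module is not of dimension four. -/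
lemma MRep.caseB [Finite K] (h : MRep r) (hsq : ∀ t, (r (uu t) - 1) * (r (uu t) - 1) = 0) :
    False := by
  obtain ⟨e, ru⟩ : ∃ e : K → M4 F, ∀ t, r (uu t) = 1 + e t := ⟨fun t => r (uu t) - 1, by simp⟩
  obtain ⟨f, rl⟩ : ∃ f : K → M4 F, ∀ t, r (ll t) = 1 + f t := ⟨fun t => r (ll t) - 1, by simp⟩
  simp only [ru, add_sub_cancel_left] at hsq
  have ea' : ∀ s t, e (s + t) = e s + e t + e s * e t := fun s t => by
    have := congrArg r (uu_add s t)
    rw [map_mul, ru, ru, ru] at this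
    linear_combination (norm := noncomm_ring) this
  have ec : ∀ s t, e s * e t = e t * e s := fun s t => by
    have := ea' s t
    rw [add_comm s t, ea'] at this
    linear_combination (norm := noncomm_ring) -this
  have ee : ∀ s t, e s * e t = 0 := fun s t => add_self_zero h.two (by
    have h1 := hsq (s + t)
    rw [ea'] at h1
    linear_combination (norm := noncomm_ring) h1 - hsq s - hsq t + ec s t - hsq s * e t -
      e s * hsq t + ec s t * e t - e s * hsq t + e s * ec s t - hsq s * e t +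
      e s * ec s t * e t - hsq s * e t * e t)
  have ea : ∀ s t, e (s + t) = e s + e t := fun s t => by rw [ea', ee, add_zero]
  have e0 : e 0 = 0 := by simpa using ea 0 0
  have en : ∀ t, e (-t) = -e t := fun t => by
    have := ea t (-t)
    rw [add_neg_cancel, e0] at this
    exact eq_neg_of_add_eq_zero_right this.symm
  have mmi : ∀ (s : K) (hs : s ≠ 0), r (mm s hs)⁻¹ = -r (mm s hs) := fun s hs => by
    rw [show (mm s hs)⁻¹ = -1 * mm s hs by
      rw [inv_eq_iff_mul_eq_one, neg_one_mul, mul_neg, mm_mul_mm, neg_neg], map_mul, h.neg,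
      neg_one_mul]
  have mm2 : ∀ (s : K) (hs : s ≠ 0), r (mm s hs) * r (mm s hs) = -1 := fun s hs => by
    rw [← map_mul, mm_mul_mm, h.neg]
  have fe : ∀ t, f t = r (mm 1 one_ne_zero) * e t * r (mm 1 one_ne_zero) := fun t => by
    have := congrArg r (mm_uu (one_ne_zero (α := K)) (-t))
    rw [map_mul, map_mul, mmi, ru, rl, en] at this
    simp only [inv_one, one_pow, mul_one, neg_neg] at this
    linear_combination (norm := noncomm_ring) -this - mm2 1 one_ne_zero
  have ff : ∀ s t, f s * f t = 0 := fun s t => by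
    rw [fe, fe]
    linear_combination (norm := noncomm_ring)
      r (mm 1 one_ne_zero) * e s * mm2 1 one_ne_zero * e t * r (mm 1 one_ne_zero) -
      r (mm 1 one_ne_zero) * ee s t * r (mm 1 one_ne_zero)
  have fn : ∀ t, f (-t) = -f t := fun t => by rw [fe, fe, en, mul_neg, neg_mul]
  have fix : ∀ z : M4 F, (∀ t, e t * z = 0) → (∀ t, f t * z = 0) → z = 0 := fun z h1 h2 => by
    have h3 : ∀ g, r g * z = z := fun g => SL2_ind (fun g => r g * z = z)
      (fun t => by rw [ru, add_mul, h1, one_mul, add_zero])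
      (fun t => by rw [rl, add_mul, h2, one_mul, add_zero])
      (fun a b ha hb => by rw [map_mul, mul_assoc, hb, ha]) g
    have := h3 (-1)
    rw [h.neg, neg_one_mul] at this
    exact add_self_zero h.two (by linear_combination (norm := noncomm_ring) -this)
  have key : ∀ (s : K) (hs : s ≠ 0), e s * f s⁻¹ + f s⁻¹ * e s = 1 ∧ r (mm s hs) = e s - f s⁻¹ := by
    intro s hs
    have h1 := congrArg r (uu_ll_uu hs)
    have h2 := congrArg r (ll_uu_ll hs)
    rw [map_mul, map_mul, ru, rl, fn] at h1 h2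
    have h3 : e s - e s * f s⁻¹ * e s = -f s⁻¹ + f s⁻¹ * e s * f s⁻¹ := by
      linear_combination (norm := noncomm_ring) h1 - h2 - ee s s + ff s⁻¹ s⁻¹
    have h4 : e s - e s * f s⁻¹ * e s = 0 := fix _
      (fun t => by linear_combination (norm := noncomm_ring) ee t s - ee t s * f s⁻¹ * e s)
      (fun t => by
        rw [h3]
        linear_combination (norm := noncomm_ring) -ff t s⁻¹ + ff t s⁻¹ * e s * f s⁻¹)
    have h5 : -f s⁻¹ + f s⁻¹ * e s * f s⁻¹ = 0 := h3 ▸ h4
    obtain ⟨π, hπ⟩ : ∃ π, π = 1 - e s * f s⁻¹ - f s⁻¹ * e s := ⟨_, rfl⟩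
    have h6 : r (mm s hs) = π + e s - f s⁻¹ := by
      rw [hπ]; linear_combination (norm := noncomm_ring) -h1 + ee s s + h4
    have h7 : e s * π = 0 := by
      rw [hπ]; linear_combination (norm := noncomm_ring) h4 - ee s s * f s⁻¹
    have h8 : f s⁻¹ * π = 0 := by
      rw [hπ]; linear_combination (norm := noncomm_ring) -h5 - ff s⁻¹ s⁻¹ * e s
    have h9 : π * π = π := by
      nth_rw 1 [hπ]
      linear_combination (norm := noncomm_ring) -(e s * h8) - f s⁻¹ * h7
    have h10 : r (mm s hs) * π = π := by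
      rw [h6]; linear_combination (norm := noncomm_ring) h9 + h7 - h8
    have h11 : π = 0 := add_self_zero h.two (by
      linear_combination (norm := noncomm_ring) mm2 s hs * π - r (mm s hs) * h10 - h10)
    rw [h11, zero_add] at h6
    exact ⟨by linear_combination (norm := noncomm_ring) hπ - h11, h6⟩
  obtain ⟨k1, k2⟩ := key 1 one_ne_zero
  rw [inv_one] at k1 k2
  obtain ⟨E, hE⟩ : ∃ E, E = e 1 := ⟨_, rfl⟩
  obtain ⟨G, hG⟩ : ∃ G, G = f 1 := ⟨_, rfl⟩
  have eE : ∀ t, e t * E = 0 := fun t => hE ▸ ee t 1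
  have Ee : ∀ t, E * e t = 0 := fun t => hE ▸ ee 1 t
  have fG : ∀ t, f t * G = 0 := fun t => hG ▸ ff t 1
  have GG : G * G = 0 := hG ▸ ff 1 1
  have EE : E * E = 0 := hE ▸ ee 1 1
  rw [← hE, ← hG] at k1 k2
  have GEG : G * E * G = G := by linear_combination (norm := noncomm_ring) G * k1 - GG * E
  have EGE : E * G * E = E := by linear_combination (norm := noncomm_ring) E * k1 - EE * G
  have fe' : ∀ t, f t = G * e t * G := fun t => by
    rw [fe, k2]
    linear_combination (norm := noncomm_ring) Ee t * (E - G) - G * eE t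
  have hhr : ∀ (s : K) (hs : s ≠ 0), r (hh s hs) = e s * G + f s⁻¹ * E := fun s hs => by
    have h1 := congrArg r (hh_mul_mm hs (one_ne_zero (α := K)))
    simp only [mul_one] at h1
    rw [map_mul, (key s hs).2] at h1
    have h2 : r (hh s hs) = -((e s - f s⁻¹) * (E - G)) := by
      rw [← h1, ← k2, mul_assoc, mm2, mul_neg, neg_neg, mul_one]
    rw [h2]
    linear_combination (norm := noncomm_ring) -eE s - fG s⁻¹
  have jor : ∀ s : K, s ≠ 0 → ∀ t, e (s ^ 2 * t) * G = (e s * G) * (e t * G) * (e s * G) := by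
    intro s hs t
    have h1 := congrArg r (hh_uu hs t)
    have h2 : (hh s hs)⁻¹ = hh s⁻¹ (inv_ne_zero hs) := by
      rw [inv_eq_iff_mul_eq_one, hh_mul_hh]; simp only [mul_inv_cancel₀ hs, hh_one]
    have h3 : r (hh s hs) * r (hh s hs)⁻¹ = 1 := by rw [← map_mul, mul_inv_cancel, map_one]
    rw [map_mul, map_mul, ru, ru, mul_add, add_mul, mul_one, h3, add_right_inj, h2, hhr, hhr,
      inv_inv, fe' s] at h1
    rw [← h1]
    linear_combination (norm := noncomm_ring) f s⁻¹ * Ee t * (e s⁻¹ * G + G * e s * G * E) * G +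
      e s * G * ee t s⁻¹ * G * G + e s * G * e t * G * e s * GEG
  obtain ⟨γ, hγ⟩ := IsCyclic.exists_monoid_generator (α := Kˣ)
  have pw : ∀ n : ℕ, e ((γ : K) ^ (n + 1)) * G = (e γ * G) ^ (n + 1) := fun n => by
    induction n using Nat.twoStepInduction with
    | zero => simp
    | one =>
      have := jor γ γ.ne_zero 1
      rw [mul_one, ← hE] at this
      rw [this, pow_two]
      linear_combination (norm := noncomm_ring) e γ * GEG * e γ * G
    | more n ih _ =>
      rw [show (γ : K) ^ (n + 2 + 1) = (γ : K) ^ 2 * (γ : K) ^ (n + 1) by ring, jor γ γ.ne_zero,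
        ih, ← pow_succ', ← pow_succ]
  have pw' : ∀ t, ∃ n : ℕ, e t * G = 0 ∨ e t * G = (e γ * G) ^ n := fun t => by
    by_cases ht : t = 0
    · exact ⟨0, Or.inl (by rw [ht, e0, zero_mul])⟩
    · obtain ⟨n, hn⟩ := hγ (Units.mk0 t ht * γ⁻¹)
      refine ⟨n + 1, Or.inr ?_⟩
      rw [← pw]
      congr 2
      have := congrArg (fun x : Kˣ => (x : K) * γ) hn
      simpa [pow_succ] using this.symm
  have ac : ∀ s t, (e s * G) * (e t * G) = (e t * G) * (e s * G) := fun s t => by
    obtain ⟨m, h1 | h1⟩ := pw' s <;> obtain ⟨n, h2 | h2⟩ := pw' t <;> rw [h1, h2]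
    · rw [zero_mul, mul_zero]
    · rw [zero_mul, mul_zero]
    · rw [← pow_add, ← pow_add, add_comm]
  have sc : ∀ t, ∃ c : F, e t = c • E := fun t => by
    obtain ⟨c, hc⟩ := h.schur (e t * G + G * e t) fun g =>
      SL2_ind (fun g => (e t * G + G * e t) * r g = r g * (e t * G + G * e t))
        (fun s => by
          rw [ru]
          linear_combination (norm := noncomm_ring) G * ee t s - ee s t * G + ac t s * E -
            e t * G * e s * k1 + e s * G * e t * k1 + e t * G * eE s * G - e s * G * eE t * G)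
        (fun s => by
          rw [rl, fe' s]
          linear_combination (norm := noncomm_ring) G * ac t s + e t * GG * e s * G -
            G * e s * GG * e t)
        (fun a b ha hb => by rw [map_mul, ← mul_assoc, ha, mul_assoc, hb, mul_assoc]) g
    refine ⟨c, ?_⟩
    have := congrArg (E * ·) hc
    simp only [mul_smul_comm, mul_one] at this
    rw [← this]
    linear_combination (norm := noncomm_ring) -(k1 * e t) + G * Ee t - Ee t * G
  have E0 : E ≠ 0 := fun h0 => by
    rw [h0, zero_mul, mul_zero, add_zero] at k1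
    exact zero_ne_one k1
  obtain ⟨u, hu⟩ : ∃ u, E *ᵥ u ≠ 0 := by
    by_contra! h0
    exact E0 (Matrix.toLin'.injective (LinearMap.ext fun u => by simpa using h0 u))
  have hv : E *ᵥ u ∈ Submodule.span F ({E *ᵥ u, G *ᵥ (E *ᵥ u)} : Set (I4 → F)) :=
    Submodule.subset_span (by simp)
  have hw : G *ᵥ (E *ᵥ u) ∈ Submodule.span F ({E *ᵥ u, G *ᵥ (E *ᵥ u)} : Set (I4 → F)) :=
    Submodule.subset_span (by simp)
  rcases h.irr (Submodule.span F {E *ᵥ u, G *ᵥ (E *ᵥ u)}) (fun g => SL2_ind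
    (fun g => ∀ v ∈ Submodule.span F ({E *ᵥ u, G *ᵥ (E *ᵥ u)} : Set (I4 → F)),
      r g *ᵥ v ∈ Submodule.span F ({E *ᵥ u, G *ᵥ (E *ᵥ u)} : Set (I4 → F)))
    (fun t v hv' => by
      obtain ⟨a, b, rfl⟩ := Submodule.mem_span_pair.1 hv'
      obtain ⟨c, hc⟩ := sc t
      rw [ru, hc, add_mulVec, one_mulVec, smul_mulVec, mulVec_add, mulVec_smul, mulVec_smul]
      simp only [mulVec_mulVec, ← mul_assoc, EE, EGE, zero_mulVec, smul_zero, zero_add] at hv' hv ⊢
      exact Submodule.add_mem _ hv' (Submodule.smul_mem _ _ (Submodule.smul_mem _ _ hv)))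
    (fun t v hv' => by
      obtain ⟨a, b, rfl⟩ := Submodule.mem_span_pair.1 hv'
      obtain ⟨c, hc⟩ := sc t
      rw [rl, fe', hc, mul_smul_comm, smul_mul_assoc, GEG, add_mulVec, one_mulVec, smul_mulVec,
        mulVec_add, mulVec_smul, mulVec_smul]
      simp only [mulVec_mulVec, ← mul_assoc, GG, zero_mul, zero_mulVec, smul_zero, add_zero]
        at hv' hw ⊢
      exact Submodule.add_mem _ hv' (Submodule.smul_mem _ _ (Submodule.smul_mem _ _ hw)))
    (fun a b ha hb v hv' => by rw [map_mul, ← mulVec_mulVec]; exact ha _ (hb v hv')) g) with h0 | h0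
  · rw [h0] at hv
    exact hu hv
  · classical
    have h1 := finrank_span_finset_le_card (R := F) ({E *ᵥ u, G *ᵥ (E *ᵥ u)} : Finset (I4 → F))
    rw [Set.finrank, Finset.coe_pair, h0, finrank_top, Module.finrank_fintype_fun_eq_card] at h1
    have h2 := h1.trans (Finset.card_le_two)
    simp at h2

/-- There is no Jordan type `(3, 1)` in `Sp₄`. -/
lemma MRep.sq_of_cube (h : MRep r) {g : SL(2, K)} (h3 : (r g - 1) ^ 3 = 0) :
    (r g - 1) * (r g - 1) = 0 := by
  obtain ⟨n, hn⟩ : ∃ n, r g = 1 + n := ⟨r g - 1, by simp⟩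
  rw [hn, add_sub_cancel_left] at h3 ⊢
  rw [pow_three] at h3
  have h1 : r g⁻¹ * r g = 1 := by rw [← map_mul, inv_mul_cancel, map_one]
  have h2 : n * n = r g + r g⁻¹ - 1 - 1 := by
    rw [hn] at h1 ⊢
    linear_combination (norm := noncomm_ring) r g⁻¹ * h3 - h1 * (1 - n + n * n)
  have h4 : ad (n * n) = n * n := by
    rw [h2, ad_sub, ad_sub, ad_add, ad_one, h.adr, h.adr, inv_inv, add_comm (r g)]
  by_contra h0
  obtain ⟨u, hu⟩ : ∃ u, (n * n) *ᵥ u ≠ 0 := by
    by_contra! h5
    exact h0 (Matrix.toLin'.injective (LinearMap.ext fun u => by simpa using h5 u))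
  set ω := H27.jBilin (Fin 2) F with hω
  have hA : ω.IsAlt := H27.jBilin_isAlt
  have hs : ∀ x y, ω ((n * n) *ᵥ x) y = ω x ((n * n) *ᵥ y) := fun x y => by
    have := sympForm_ad (n * n) x y
    rwa [h4, H27.sympForm_eq_jBilin, H27.sympForm_eq_jBilin] at this
  have hz : ∀ x, ω ((n * n) *ᵥ x) x = 0 := fun x =>
    (mul_eq_zero.1 (by linear_combination hs x x - hA.neg_eq ((n * n) *ᵥ x) x :
      2 * ω ((n * n) *ᵥ x) x = 0)).resolve_left h.two
  obtain ⟨v, hv⟩ : ∃ v, ω ((n * n) *ᵥ u) v ≠ 0 := by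
    by_contra! h5
    exact hu ((H27.jBilin_nondegenerate (l := Fin 2) (F := F)).1 _ h5)
  have ind : ∀ a b : F, a • (n * n) *ᵥ u + b • (n * n) *ᵥ v = 0 → a = 0 ∧ b = 0 := fun a b hab => by
    have e1 := congrArg (ω · v) hab
    have e2 := congrArg (ω · u) hab
    simp only [map_add, map_smul, LinearMap.add_apply, LinearMap.smul_apply, hz, smul_eq_mul,
      map_zero, LinearMap.zero_apply, mul_zero, add_zero, zero_add] at e1 e2
    rw [hs, ← hA.neg_eq, mul_neg, neg_eq_zero] at e2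
    exact ⟨(mul_eq_zero.1 e1).resolve_right hv, (mul_eq_zero.1 e2).resolve_right hv⟩
  have li : LinearIndependent F ![u, v, n *ᵥ u, n *ᵥ v, (n * n) *ᵥ u] := by
    refine Fintype.linearIndependent_iff.2 fun c hc => ?_
    simp only [Fin.sum_univ_five, cons_val_zero, cons_val_one, cons_val] at hc
    have e1 := congrArg ((n * n) *ᵥ ·) hc
    have e2 := congrArg (n *ᵥ ·) hc
    simp only [mulVec_add, mulVec_smul, mulVec_mulVec, mul_assoc, h3, mul_zero, zero_mulVec,
      smul_zero, add_zero, mulVec_zero] at e1 e2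
    obtain ⟨a0, a1⟩ := ind _ _ e1
    simp only [a0, a1, zero_smul, zero_add] at e2 hc
    obtain ⟨a2, a3⟩ := ind _ _ e2
    simp only [a2, a3, zero_smul, zero_add] at hc
    have a4 := (smul_eq_zero.1 hc).resolve_right hu
    intro i
    fin_cases i
    exacts [a0, a1, a2, a3, a4]
  have := li.fintype_card_le_finrank
  simp at this

lemma pow_four_of_nilpotent {n : M4 F} (h : IsNilpotent n) : n ^ 4 = 0 := by
  have h1 := (isNilpotent_charpoly_sub_pow_of_isNilpotent h).eq_zero
  have h2 := aeval_self_charpoly n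
  rw [sub_eq_zero.1 h1] at h2
  simpa using h2

lemma exists_basis {n : M4 F} (h4 : n ^ 4 = 0) {v : I4 → F} (hv : n ^ 3 *ᵥ v ≠ 0) :
    ∃ b : Module.Basis (Fin 4) F (I4 → F), ∀ i, b i = n ^ (i : ℕ) *ᵥ v := by
  have li : LinearIndependent F fun i : Fin 4 => n ^ (i : ℕ) *ᵥ v := by
    refine Fintype.linearIndependent_iff.2 fun c hc => ?_
    have h5 : n ^ 5 = 0 := by rw [pow_succ, h4, zero_mul]
    have h6 : n ^ 6 = 0 := by rw [pow_succ, h5, zero_mul]
    have e := fun k : ℕ => congrArg (n ^ k *ᵥ ·) hc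
    have e3 := e 3
    have e2 := e 2
    have e1 := e 1
    simp only [Fin.sum_univ_four, mulVec_add, mulVec_smul, mulVec_mulVec, ← pow_add, mulVec_zero,
      Fin.val_zero, Fin.val_one, Fin.val_two, show ((3 : Fin 4) : ℕ) = 3 from rfl, Nat.reduceAdd,
      h4, h5, h6, zero_mulVec, smul_zero, add_zero] at e3 e2 e1 hc
    have a0 := (smul_eq_zero.1 e3).resolve_right hv
    simp only [a0, zero_smul, zero_add] at e2 e1 hc
    have a1 := (smul_eq_zero.1 e2).resolve_right hv
    simp only [a1, zero_smul, zero_add] at e1 hc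
    have a2 := (smul_eq_zero.1 e1).resolve_right hv
    simp only [a2, zero_smul, zero_add] at hc
    have a3 := (smul_eq_zero.1 hc).resolve_right hv
    intro i
    fin_cases i
    exacts [a0, a1, a2, a3]
  exact ⟨basisOfLinearIndependentOfCardEqFinrank li (by simp), fun i => by simp⟩

lemma eq_of_basis {ι : Type*} (b : Module.Basis ι F (I4 → F)) {x y : M4 F}
    (h : ∀ i, x *ᵥ b i = y *ᵥ b i) : x = y :=
  Matrix.toLin'.injective (b.ext fun i => by simpa using h i)

lemma exists_mulVec_ne {x : M4 F} (h : x ≠ 0) : ∃ v, x *ᵥ v ≠ 0 := by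
  by_contra! h5
  exact h (Matrix.toLin'.injective (LinearMap.ext fun u => by simpa using h5 u))

lemma commutant {n m : M4 F} (h4 : n ^ 4 = 0) (h3 : n ^ 3 ≠ 0) (hc : Commute m n)
    (hm : m ^ 4 = 0) : ∃ a : F, m * n ^ 2 = a • n ^ 3 ∧ m * n ^ 3 = 0 ∧ m ^ 3 = a ^ 3 • n ^ 3 := by
  obtain ⟨v, hv⟩ := exists_mulVec_ne h3
  obtain ⟨b, hb⟩ := exists_basis h4 hv
  obtain ⟨c, hc'⟩ : ∃ c : Fin 4 → F, m = ∑ i, c i • n ^ (i : ℕ) := by
    refine ⟨b.repr (m *ᵥ v), eq_of_basis b fun j => ?_⟩
    have h1 := b.sum_repr (m *ᵥ v)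
    rw [hb, mulVec_mulVec, (hc.pow_right _).eq, ← mulVec_mulVec]
    nth_rw 1 [← h1]
    rw [mulVec_sum, sum_mulVec]
    refine Finset.sum_congr rfl fun i _ => ?_
    rw [hb, mulVec_smul, smul_mulVec, mulVec_mulVec, mulVec_mulVec, ← pow_add, ← pow_add, add_comm]
  have h5 : n ^ 5 = 0 := by rw [pow_succ, h4, zero_mul]
  have h6 : n ^ 6 = 0 := by rw [pow_succ, h5, zero_mul]
  simp only [Fin.sum_univ_four, Fin.val_zero, Fin.val_one, Fin.val_two,
    show ((3 : Fin 4) : ℕ) = 3 from rfl] at hc'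
  have e3 : m * n ^ 3 = c 0 • n ^ 3 := by
    rw [hc']; simp only [add_mul, smul_mul_assoc, ← pow_add, Nat.reduceAdd, h4, h5, h6, smul_zero,
      add_zero]
  have c0 : c 0 = 0 := by
    have : m ^ 4 * n ^ 3 = c 0 ^ 4 • n ^ 3 := by
      simp only [pow_succ m, pow_zero, one_mul, mul_assoc, e3, mul_smul_comm, smul_smul]
      congr 1; ring
    rw [hm, zero_mul, eq_comm, smul_eq_zero] at this
    exact pow_eq_zero_iff (by norm_num) |>.1 (this.resolve_right h3)
  rw [c0, zero_smul, zero_add] at hc'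
  rw [c0, zero_smul] at e3
  have e2 : m * n ^ 2 = c 1 • n ^ 3 := by
    rw [hc']; simp only [add_mul, smul_mul_assoc, ← pow_add, Nat.reduceAdd, h4, h5, smul_zero,
      add_zero]
  have e1 : m * n ^ 1 = c 1 • n ^ 2 + c 2 • n ^ 3 := by
    rw [hc']; simp only [add_mul, smul_mul_assoc, ← pow_add, Nat.reduceAdd, h4, smul_zero,
      add_zero]
  refine ⟨c 1, e2, e3, ?_⟩
  rw [pow_three]
  nth_rw 3 [hc']
  simp only [mul_add, mul_smul_comm, e1, e2, e3, smul_zero, add_zero, smul_smul]
  congr 1; ring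

section Char

variable (p : ℕ) [hp : Fact p.Prime] [CharP F p] [CharP K p]
include hp

lemma nil_uu (r : SL(2, K) →* M4 F) (t : K) : (r (uu t) - 1) ^ p = 0 := by
  rw [sub_pow_char_of_commute p (Commute.one_right _), ← map_pow, uu_pow, CharP.cast_eq_zero,
    zero_mul, uu_zero, map_one, one_pow, sub_self]

lemma nil_uu4 (r : SL(2, K) →* M4 F) (t : K) : (r (uu t) - 1) ^ 4 = 0 :=
  pow_four_of_nilpotent ⟨p, nil_uu p r t⟩

lemma MRep.caseA [Finite K] (h : MRep r) :
    (∀ t, t ≠ 0 → (r (uu t) - 1) ^ 3 ≠ 0) ∧ ∃ a : K → F, Function.Injective a := by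
  obtain ⟨t, ht⟩ : ∃ t, (r (uu t) - 1) ^ 3 ≠ 0 := by
    by_contra! h0
    exact h.caseB fun t => h.sq_of_cube (h0 t)
  have hc : ∀ s, Commute (r (uu s) - 1) (r (uu t) - 1) := fun s =>
    Commute.sub_left (Commute.sub_right (by rw [Commute, SemiconjBy, ← map_mul, uu_comm, map_mul])
      (Commute.one_right _)) (Commute.one_left _)
  choose a a2 a3 a4 using fun s => commutant (nil_uu4 p r t) ht (hc s) (nil_uu4 p r s)
  have add : ∀ s s', a (s + s') = a s + a s' := fun s s' => by
    have h1 := a2 (s + s')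
    rw [show r (uu (s + s')) - 1 = (r (uu s) - 1) + (r (uu s') - 1) +
      (r (uu s) - 1) * (r (uu s') - 1) by rw [uu_add, map_mul]; noncomm_ring, add_mul, add_mul,
      mul_assoc, a2, a2, mul_smul_comm, a3, smul_zero, add_zero, ← add_smul] at h1
    exact smul_left_injective F ht h1.symm
  have a0 : a 0 = 0 := by simpa using add 0 0
  have sub : ∀ s s', a (s - s') = a s - a s' := fun s s' => by
    rw [eq_sub_iff_add_eq, ← add, sub_add_cancel]
  have iff : ∀ s, (r (uu s) - 1) ^ 3 = 0 ↔ a s = 0 := fun s => by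
    rw [a4, smul_eq_zero, or_iff_left ht, pow_eq_zero_iff (by norm_num)]
  have sq : ∀ s c, a s = 0 → a (c ^ 2 * s) = 0 := fun s c hs => by
    by_cases hc0 : c = 0
    · rw [hc0]; simpa using a0
    rw [← iff] at hs ⊢
    have h1 : r (hh c hc0) * r (hh c hc0)⁻¹ = 1 := by rw [← map_mul, mul_inv_cancel, map_one]
    have h2 : r (hh c hc0)⁻¹ * r (hh c hc0) = 1 := by rw [← map_mul, inv_mul_cancel, map_one]
    have h3 : r (uu (c ^ 2 * s)) - 1 = r (hh c hc0) * (r (uu s) - 1) * r (hh c hc0)⁻¹ := by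
      rw [← hh_uu hc0, map_mul, map_mul, mul_sub, sub_mul, mul_one, h1]
    rw [h3, pow_three]
    rw [pow_three] at hs
    simp only [mul_assoc, ← mul_assoc (r (hh c hc0)⁻¹) (r (hh c hc0)), h2, one_mul]
    rw [← mul_assoc (r (uu s) - 1) (r (uu s) - 1) (r _), ← mul_assoc (r (uu s) - 1), hs, zero_mul,
      mul_zero]
  have ker : ∀ s, a s = 0 → s = 0 := fun s hs => by
    by_contra h0
    obtain ⟨x, y, hxy⟩ := exists_sq_sub_sq (t / s)
    refine ht ((iff t).2 ?_)
    rw [show t = x ^ 2 * s - y ^ 2 * s by rw [← sub_mul, ← hxy, div_mul_cancel₀ _ h0], sub,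
      sq s x hs, sq s y hs, sub_self]
  exact ⟨fun s hs h1 => hs (ker s ((iff s).1 h1)), a, fun s s' hs =>
    sub_eq_zero.1 (ker _ (by rw [sub, hs, sub_self]))⟩

omit [CharP K p] in
lemma MRep.trace_pow (h : MRep r) (n : ℕ) (g : SL(2, K)) :
    (r (g ^ p ^ n)).trace = (r g).trace ^ p ^ n := by
  obtain ⟨c, hc⟩ := h.quad g
  have hodd : Odd (p ^ n) := (hp.out.odd_of_ne_two (by
    rintro rfl
    exact h.two (by exact_mod_cast CharP.cast_eq_zero F 2))).pow
  obtain ⟨k, hk⟩ := hodd
  set s := r g + r g⁻¹ with hs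
  set a := (r g).trace with ha
  have ts : s.trace = 2 * a := by rw [hs, trace_add, h.trace_inv]; ring
  have h1 : s ^ p ^ n = r (g ^ p ^ n) + r (g ^ p ^ n)⁻¹ := by
    rw [hs, add_pow_char_pow_of_commute p n ((Commute.refl g).inv_right.map r), ← map_pow,
      ← map_pow, inv_pow]
  obtain ⟨t, ht⟩ : ∃ t, t = (2 : F) • s - a • (1 : M4 F) := ⟨_, rfl⟩
  have t2 : t ^ 2 = (4 * c + a ^ 2) • (1 : M4 F) := by
    rw [ht, pow_two, sub_mul, mul_sub, mul_sub, smul_mul_smul_comm, hc]
    simp only [smul_mul_assoc, mul_smul_comm, mul_one, one_mul]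
    module
  have t0 : t.trace = 0 := by rw [ht, trace_sub, trace_smul, trace_smul, ts, trace_one4]; simp; ring
  have h2 : ((2 : F) • s) ^ p ^ n = t ^ p ^ n + (a • (1 : M4 F)) ^ p ^ n := by
    rw [← add_pow_char_pow_of_commute p n ((Commute.one_right t).smul_right a), ht, sub_add_cancel]
  have h3 : (t ^ p ^ n).trace = 0 := by
    rw [hk, pow_succ, pow_mul, t2, smul_pow, one_pow, smul_mul_assoc, one_mul, trace_smul, t0,
      smul_zero]
  have h4 : (2 : F) ^ p ^ n = 2 := by
    rw [← one_add_one_eq_two, add_pow_char_pow, one_pow]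
  have h5 := congrArg trace h2
  rw [smul_pow, smul_pow, one_pow, h1, h4, trace_add, h3, trace_smul, trace_smul, trace_add,
    h.trace_inv, trace_one4] at h5
  simp only [smul_eq_mul] at h5
  exact mul_left_cancel₀ (four_ne h.two) (by linear_combination h5)

end Char

lemma pow_card_cases [Fintype K] (h2 : (2 : K) ≠ 0) (g : SL(2, K)) :
    g ^ Fintype.card K = g ∨ g ^ Fintype.card K = g⁻¹ ∨ g ^ Fintype.card K = 1 ∨
      g ^ Fintype.card K = -1 := by
  obtain ⟨p, hp⟩ := CharP.exists K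
  obtain ⟨n, hp', hn⟩ := FiniteField.card K p
  have : Fact p.Prime := ⟨hp'⟩
  have hc : ringChar K ≠ 2 := fun h => h2 (by
    have := ringChar.Nat.cast_ringChar (R := K)
    rw [h] at this
    exact_mod_cast this)
  have hd := SL2_det g
  set A : Matrix (Fin 2) (Fin 2) K := g.1 with hA
  set τ := g 0 0 + g 1 1 with hτ
  obtain ⟨t, ht⟩ : ∃ t, t = (2 : K) • A - τ • (1 : Matrix (Fin 2) (Fin 2) K) := ⟨_, rfl⟩
  have t2 : t ^ 2 = (τ ^ 2 - 4) • (1 : Matrix (Fin 2) (Fin 2) K) := by
    rw [ht, pow_two]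
    ext i j
    fin_cases i <;> fin_cases j <;> simp [Matrix.mul_apply, Fin.sum_univ_two, hτ, hA]
    · linear_combination (-4) * hd
    · ring
    · ring
    · linear_combination (-4) * hd
  have h1 : ((2 : K) • A) ^ Fintype.card K =
      t ^ Fintype.card K + (τ • (1 : Matrix (Fin 2) (Fin 2) K)) ^ Fintype.card K := by
    rw [hn, ← add_pow_char_pow_of_commute p n ((Commute.one_right t).smul_right τ), ht,
      sub_add_cancel]
  have h3 : t ^ Fintype.card K = (τ ^ 2 - 4) ^ (Fintype.card K / 2) • t := by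
    conv_lhs => rw [← Nat.div_add_mod (Fintype.card K) 2, FiniteField.odd_card_of_char_ne_two hc]
    rw [pow_succ, pow_mul, t2, smul_pow, one_pow, smul_mul_assoc, one_mul]
  rw [smul_pow, smul_pow, one_pow, FiniteField.pow_card, FiniteField.pow_card, h3] at h1
  have h4 : ∀ x : SL(2, K), (2 : K) • A ^ Fintype.card K = (2 : K) • x.1 →
      g ^ Fintype.card K = x := fun x hx =>
    Subtype.ext ((Matrix.SpecialLinearGroup.coe_pow _ _).trans (smul_right_injective _ h2 hx))
  by_cases h0 : τ ^ 2 - 4 = 0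
  · have h5 : Fintype.card K / 2 ≠ 0 := by
      have := Fintype.one_lt_card (α := K)
      omega
    rw [h0, zero_pow h5, zero_smul, zero_add] at h1
    have h6 : (τ - 2) * (τ + 2) = 0 := by linear_combination h0
    rcases mul_eq_zero.1 h6 with h7 | h7
    · exact Or.inr (Or.inr (Or.inl (h4 1 (by rw [h1, sub_eq_zero.1 h7]; rfl))))
    · refine Or.inr (Or.inr (Or.inr (h4 (-1) ?_)))
      rw [h1, eq_neg_of_add_eq_zero_left h7]; simp
  · rcases FiniteField.pow_dichotomy hc h0 with h5 | h5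
    · exact Or.inl (h4 g (by rw [h1, h5, one_smul, ht, sub_add_cancel]))
    · refine Or.inr (Or.inl (h4 g⁻¹ ?_))
      rw [h1, h5, ht, Matrix.SpecialLinearGroup.coe_inv, adjugate_fin_two]
      ext i j
      fin_cases i <;> fin_cases j <;> simp [hτ, hA] <;> ring

lemma two_ne_of_charP (p : ℕ) [CharP F p] [CharP K p] (h : (2 : F) ≠ 0) : (2 : K) ≠ 0 :=
  fun h2 => h (by
    have := (CharP.cast_eq_zero_iff F p 2).2 ((CharP.cast_eq_zero_iff K p 2).1 (by exact_mod_cast h2))
    exact_mod_cast this)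

theorem defStmt : DefStmt.{u} := by
  intro F _ _ H P h K _ _ p hp _ _ _ hP
  obtain ⟨ρ, hρ⟩ := exists_rep hP
  have h2 := two_ne_of_charP (K := K) p h.two
  have hr := hρ.mrep h h2
  obtain ⟨h3, a, ha⟩ := hr.caseA p
  refine ⟨?_, le_antisymm (Fintype.card_le_of_injective a ha) ?_⟩
  · refine hp.out.five_le_of_ne_two_of_ne_three ?_ ?_
    · rintro rfl
      exact h.two (by exact_mod_cast CharP.cast_eq_zero F 2)
    · rintro rfl
      exact h3 1 one_ne_zero (nil_uu 3 _ 1)
  · obtain ⟨n, -, hn⟩ := FiniteField.card K p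
    have h1 := h.pow_eq p n fun x hx => by
      obtain ⟨g, rfl⟩ := hρ.surj x hx
      have h4 := hr.trace_pow p n g
      have h5 : (4 : F) ^ p ^ (n : ℕ) = 4 := map_ofNat (iterateFrobenius F p n) 4
      have inj : ∀ x y : F, x ^ p ^ (n : ℕ) = y ^ p ^ (n : ℕ) → x = y := fun x y hxy =>
        (iterateFrobenius F p n).injective hxy
      change (mat ρ g).trace ^ _ = (mat ρ g).trace
      rcases pow_card_cases h2 g with h6 | h6 | h6 | h6 <;> rw [hn] at h6 <;> rw [h6] at h4
      · exact h4.symm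
      · rw [← h4, hr.trace_inv]
      · rw [map_one, trace_one4] at h4
        exact h4.symm.trans (inj _ _ (h5.trans h4))
      · rw [hr.neg, trace_neg, trace_one4] at h4
        refine h4.symm.trans (inj _ _ (Eq.trans ?_ h4))
        rw [neg_pow, h5, neg_one_pow_char_pow, neg_one_mul]
    have hlt : 1 < p ^ (n : ℕ) := hn ▸ Fintype.one_lt_card
    have h3 : (Polynomial.X ^ p ^ (n : ℕ) - Polynomial.X : Polynomial F) ≠ 0 :=
      FiniteField.X_pow_card_sub_X_ne_zero F hlt
    classical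
    have h4 := Polynomial.card_le_degree_of_subset_roots
      (p := Polynomial.X ^ p ^ (n : ℕ) - Polynomial.X)
      (Z := (Finset.univ : Finset F)) fun x _ => by
        rw [Polynomial.mem_roots h3]; simpa [sub_eq_zero] using h1 x
    rwa [FiniteField.X_pow_card_sub_X_natDegree_eq F hlt, ← hn] at h4

end Cfsg.Agent.H35.Sp4
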