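import Cfsg.Agent.H35.Sp4Def

/-! `SL₂(7) < 2.A₇ < Sp₄(7)`. -/

set_option autoImplicit false

namespace Cfsg.Agent.H35.Sp4

open Matrix Cfsg.Geo Cfsg.Agent.H25 Cfsg.Agent.H25.S4 Cfsg.Agent.H82
open scoped MatrixGroups

universe u

section Model

abbrev N4 := Matrix (Fin 4) (Fin 4) (ZMod 7)

def X0 : N4 := !![1, 0, 0, 0; 1, 1, 0, 0; 0, 1, 1, 0; 0, 0, 1, 1]
def W0 (k : ZMod 7) : N4 :=
  !![0, -1, k ^ 5, k ^ 5; 0, 1, 2, 0; 0, -1, -1, 0; -k, 1 + k, 1 + 2 * k, 0]
def B0 : N4 := !![0, 1, 6, 6; 6, 0, 1, 0; 1, 6, 0, 0; 1, 0, 0, 0]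
def Bi : N4 := !![0, 0, 0, 1; 0, 0, 6, 1; 0, 1, 0, 1; 6, 6, 6, 0]
def C0 : N4 := !![4, 1, 1, 4; 6, 4, 4, 0; 6, 6, 1, 2; 1, 1, 6, 4]
def N0 : N4 := !![0, 0, 0, 0; 0, 0, 0, 0; 0, 0, 0, 0; 1, 0, 0, 0]
def ad0 (M : N4) : N4 := Bi * Mᵀ * B0
def dig (c : ℕ) : N4 := Matrix.of fun i j => ((c / 7 ^ (4 * i.val + j.val) : ℕ) : ZMod 7)
def codes : List ℕ := [16263526884129, 22492124355421, 1021815731489, 8772920186877,
  23165663634176, 29671064702713, 7677255421990, 31094496906802, 9100687626079, 15509199684209,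
  29998791788308, 4517006027702, 2423676945839, 28927514861702, 11182958739367, 2765245318635,
  25998110030447, 32420491390597, 10008403585211, 29093303834822, 11348788066094, 10350012193965,
  7092833435663, 18331995078148, 24837396264334, 25167100575830, 8100807863144, 24001663471146,
  30670944448848, 12926428680120, 13932378720915, 19759556834252, 31676901212786, 28421740017185,
  27326075252298, 4930886984034, 3004131922804, 6349283611459, 12771664853960, 2095353367714,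
  27588753235825, 5096675957154]

lemma B0_Bi : B0 * Bi = 1 := by decide +kernel
lemma W0_pin : ∀ k : ZMod 7, k ≠ 0 → X0 * W0 k * (X0 * W0 k * (X0 * W0 k)) = 1 → k = 1 := by
  decide +kernel
lemma ad0_X : ad0 X0 * X0 = 1 := by decide +kernel
lemma ad0_W : ad0 (W0 1) * W0 1 = 1 := by decide +kernel
lemma ad0_C : ad0 C0 * C0 = 1 := by decide +kernel
lemma ad0_T : ad0 (1 + N0) * (1 + N0) = 1 := by decide +kernel
lemma codes_X : ∀ c ∈ codes, ∃ d ∈ codes, X0 * dig c = dig d * X0 := by decide +kernel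
lemma codes_W : ∀ c ∈ codes, ∃ d ∈ codes, W0 1 * dig c = dig d * W0 1 := by decide +kernel
lemma codes_C : ∀ c ∈ codes, ∃ d ∈ codes, C0 * dig c = dig d * C0 := by decide +kernel
lemma codes_T : ∃ c ∈ codes, dig c * -dig c = 1 ∧ -dig c * dig c = 1 ∧
    ∀ d ∈ codes, (1 + N0) * dig c ≠ dig d * (1 + N0) := by decide +kernel
lemma C0_pow : C0 * C0 * (C0 * C0) * C0 = 1 := by decide +kernel
lemma C0_ne : C0 ≠ 1 := by decide +kernel
lemma X0_cube : (X0 - 1) * ((X0 - 1) * (X0 - 1)) = N0 := by decide +kernel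
lemma Xi_cube : (ad0 X0 - 1) * ((ad0 X0 - 1) * (ad0 X0 - 1)) = -N0 := by decide +kernel

lemma ad0_mul (a b : N4) : ad0 (a * b) = ad0 b * ad0 a := by
  simp only [ad0, transpose_mul, Matrix.mul_assoc, ← Matrix.mul_assoc B0 Bi, B0_Bi, Matrix.one_mul]

lemma ad0_add (a b : N4) : ad0 (a + b) = ad0 a + ad0 b := by
  simp only [ad0, transpose_add, Matrix.mul_add, Matrix.add_mul]

lemma ad0_nsmul (n : ℕ) (a : N4) : ad0 (n • a) = n • ad0 a := by
  simp only [ad0, transpose_smul, Matrix.mul_smul, Matrix.smul_mul]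

/-- The regular unipotent element is not real. -/
lemma not_real {M : N4} (h1 : ad0 M * M = 1) (h2 : X0 * M * X0 = M) : False := by
  have h3 : SemiconjBy M X0 (ad0 X0) := by
    rw [SemiconjBy]
    nth_rw 2 [← h2]
    rw [← mul_assoc, ← mul_assoc, ad0_X, one_mul]
  have h4 := h3.sub_right (SemiconjBy.one_right M)
  have h5 := (h4.mul_right (h4.mul_right h4)).eq
  rw [X0_cube, Xi_cube] at h5
  have h6 : Mᵀ * B0 * M = B0 := by
    have := congrArg (B0 * ·) h1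
    simpa only [ad0, ← Matrix.mul_assoc, B0_Bi, Matrix.one_mul, Matrix.mul_one] using this
  have h7 : B0 * N0 = -(Mᵀ * (B0 * N0) * M) := by
    nth_rw 1 [← h6]
    rw [mul_assoc, h5]
    simp only [mul_assoc, neg_mul, mul_neg]
  have h8 : B0 * N0 = !![6, 0, 0, 0; 0, 0, 0, 0; 0, 0, 0, 0; 0, 0, 0, 0] := by decide +kernel
  have h9 := congrFun (congrFun h7 0) 0
  rw [h8] at h9
  simp [Matrix.mul_apply, Fin.sum_univ_four] at h9
  exact (by decide : ∀ y : ZMod 7, (6 : ZMod 7) ≠ -(y * 6 * y)) _ h9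

end Model

variable {F K : Type*} [Field F] [Field K] {r : SL(2, K) →* M4 F}

lemma gen_ind (hK : ∀ t : K, ∃ n : ℕ, t = n) (P : SL(2, K) → Prop) (h1 : P (uu 1))
    (hw : P (mm 1 one_ne_zero)) (hmul : ∀ a b, P a → P b → P (a * b)) (g : SL(2, K)) : P g := by
  have h2 : P (-1) := mm_mul_mm (one_ne_zero (α := K)) ▸ hmul _ _ hw hw
  have h0 : P 1 := by simpa using hmul _ _ h2 h2
  have hu : ∀ t, P (uu t) := fun t => by
    obtain ⟨n, rfl⟩ := hK t
    induction n with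
    | zero => rwa [Nat.cast_zero, uu_zero]
    | succ n ih => rw [Nat.cast_succ, uu_add]; exact hmul _ _ ih h1
  refine SL2_ind P hu (fun t => ?_) hmul g
  have h3 : ll t = mm 1 one_ne_zero * uu (-t) * (-1 * mm 1 one_ne_zero) := by
    apply SL2_ext <;> simp [ent]
  exact h3 ▸ hmul _ _ (hmul _ _ hw (hu _)) (hmul _ _ h2 hw)

lemma braid_conj {y : SL(2, K)} (h : uu 1 * y * uu 1 = y * uu 1 * y) (h1 : y ≠ uu 1) :
    ∃ c, uu c * y * (uu c)⁻¹ = ll (-1) := by
  have hd := SL2_det y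
  have e := fun i j => congrArg (fun g : SL(2, K) => g i j) h
  have e00 := e 0 0
  have e01 := e 0 1
  have e10 := e 1 0
  simp only [ent] at e00 e01 e10
  by_cases h0 : y 1 0 = 0
  · rw [h0] at hd e00
    have a1 : y 0 0 = 1 := by linear_combination -(y 1 1 * e00) + (1 - y 0 0) * hd
    have a2 : y 1 1 = 1 := by linear_combination hd - y 1 1 * a1
    rw [a1, a2, h0] at e01
    exact absurd (SL2_ext a1 (by simp only [ent]; linear_combination -e01) h0 a2) h1
  · have a1 : y 0 0 + y 1 1 + y 1 0 = 1 := mul_left_cancel₀ h0 (by linear_combination -e10)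
    have a2 : y 1 0 = -1 := by linear_combination e00 - hd + y 0 0 * a1
    have a3 : y 1 1 = 2 - y 0 0 := by linear_combination a1 - a2
    rw [a2, a3] at hd
    refine ⟨y 0 0 - 1, ?_⟩
    apply SL2_ext <;> simp only [ent, a2, a3]
    · ring
    · linear_combination hd
    · ring

lemma MRep.NwN (h : MRep r) (h4 : ∀ t, (r (uu t) - 1) ^ 4 = 0) (h3 : (r (uu 1) - 1) ^ 3 ≠ 0) :
    (r (uu 1) - 1) ^ 3 * r (mm 1 one_ne_zero) * (r (uu 1) - 1) ^ 3 ≠ 0 := by
  intro h0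
  set N := (r (uu 1) - 1) ^ 3 with hN
  have hc : ∀ s, Commute (r (uu s) - 1) (r (uu 1) - 1) := fun s =>
    Commute.sub_left (Commute.sub_right (by rw [Commute, SemiconjBy, ← map_mul, uu_comm, map_mul])
      (Commute.one_right _)) (Commute.one_left _)
  choose a _ a3 a4 using fun s => commutant (h4 1) h3 (hc s) (h4 s)
  have u1 : ∀ s, r (uu s) * N = N := fun s => by
    have := a3 s
    rwa [sub_mul, one_mul, sub_eq_zero] at this
  have u2 : ∀ s, N * r (uu s) = N := fun s => by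
    have := ((hc s).pow_right 3).eq.symm.trans (a3 s)
    rwa [mul_sub, mul_one, sub_eq_zero] at this
  have NN : N * N = 0 := by
    rw [hN, ← pow_add, show 3 + 3 = 4 + 2 from rfl, pow_add, h4, zero_mul]
  have t1 : ∀ (s : K) (hs : s ≠ 0), ∃ c : F, N * r (hh s hs) = c • (r (hh s hs) * N) := by
    intro s hs
    have h5 : SemiconjBy (r (hh s hs)) (r (uu (s⁻¹ ^ 2)) - 1) (r (uu 1) - 1) := by
      refine SemiconjBy.sub_right ?_ (SemiconjBy.one_right _)
      have := hh_uu hs (s⁻¹ ^ 2)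
      rw [← mul_pow, mul_inv_cancel₀ hs, one_pow, mul_inv_eq_iff_eq_mul] at this
      rw [SemiconjBy, ← map_mul, this, map_mul]
    exact ⟨_, by rw [← (h5.pow_right 3).eq, a4, mul_smul_comm]⟩
  have key : ∀ g, N * r g * N = 0 := fun g => by
    by_cases hg : g ∈ BB K
    · obtain ⟨c, hc⟩ := t1 _ (ne_zero_of_mem_BB hg)
      rw [eq_hh_mul_uu hg, map_mul, mul_assoc, mul_assoc, u1, ← mul_assoc, hc, smul_mul_assoc,
        mul_assoc, NN, mul_zero, smul_zero]
    · obtain ⟨x, s, y, hs, rfl⟩ := bruhat hg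
      obtain ⟨c, hc⟩ := t1 s hs
      have h5 : mm s hs = hh s hs * mm 1 one_ne_zero := by
        rw [hh_mul_mm]; simp only [mul_one]
      rw [h5, map_mul, map_mul, map_mul, ← mul_assoc, ← mul_assoc, ← mul_assoc, u2, mul_assoc _ _ N,
        u1, hc, smul_mul_assoc, smul_mul_assoc, mul_assoc _ N, mul_assoc, h0, mul_zero, smul_zero]
  let Z : Submodule F (I4 → F) :=
    { carrier := {v | ∀ g, (N * r g) *ᵥ v = 0}
      add_mem' := fun hx hy g => by rw [mulVec_add, hx g, hy g, add_zero]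
      zero_mem' := fun g => mulVec_zero _
      smul_mem' := fun c x hx g => by rw [mulVec_smul, hx g, smul_zero] }
  obtain ⟨v, hv⟩ := exists_mulVec_ne h3
  rcases h.irr Z (fun g x hx g' => by
    rw [mulVec_mulVec, mul_assoc, ← map_mul]; exact hx _) with h5 | h5
  · have : N *ᵥ v ∈ Z := fun g => by rw [mulVec_mulVec, key, zero_mulVec]
    rw [h5] at this
    exact hv this
  · have : v ∈ Z := h5 ▸ Submodule.mem_top
    exact hv (by simpa using this 1)

lemma nat_cast_of_card [Fintype K] (hK : Fintype.card K = 7) (t : K) : ∃ n : ℕ, t = n := by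
  obtain ⟨k, rfl⟩ := (ZMod.ringEquivOfPrime K (by norm_num) hK).surjective t
  exact ⟨k.val, by
    rw [← map_natCast (ZMod.ringEquivOfPrime K (by norm_num) hK), ZMod.natCast_zmod_val]⟩

lemma MRep.model [Fintype F] [Fintype K] (h : MRep r) (hK : Fintype.card K = 7)
    (hF : Fintype.card F = 7) : ∃ Θ : N4 ≃+* M4 F, Θ X0 = r (uu 1) ∧
      Θ (W0 1) = r (mm 1 one_ne_zero) ∧ ∀ M, ad (Θ M) = Θ (ad0 M) := by
  have : Fact (Nat.Prime 7) := ⟨by norm_num⟩
  have : CharP F 7 := charP_of_card (n := 1) hF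
  have : CharP K 7 := charP_of_card (n := 1) hK
  have h3 := (h.caseA 7).1 1 one_ne_zero
  have h4 := nil_uu4 7 r 1
  obtain ⟨v₁, hv⟩ := exists_mulVec_ne (h.NwN (nil_uu4 7 r) h3)
  obtain ⟨n, hn⟩ : ∃ n, r (uu 1) = 1 + n := ⟨r (uu 1) - 1, by simp⟩
  obtain ⟨w, hw⟩ : ∃ w, r (mm 1 one_ne_zero) = w := ⟨_, rfl⟩
  have w2 : w * w = -1 := by rw [← hw, ← map_mul, mm_mul_mm, h.neg]
  have w3 : (1 + n) * w * ((1 + n) * w * ((1 + n) * w)) = 1 := by
    rw [← hw, ← hn, ← map_mul, ← map_mul, ← map_mul, ← map_one r]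
    congr 1
    apply SL2_ext <;> simp [ent]
  rw [hn, add_sub_cancel_left] at h3 h4 hv
  rw [hw, ← mulVec_mulVec, ← mulVec_mulVec] at hv
  obtain ⟨u₀, hu⟩ : ∃ u₀, n ^ 3 *ᵥ v₁ = u₀ := ⟨_, rfl⟩
  have nu : n *ᵥ u₀ = 0 := by rw [← hu, mulVec_mulVec, ← pow_succ', h4, zero_mulVec]
  rw [hu] at hv
  obtain ⟨b, hb⟩ := exists_basis h4 hv
  have b0 : w *ᵥ u₀ = b 0 := by simp [hb]
  have b1 : n *ᵥ b 0 = b 1 := by simp [hb]
  have b2 : n *ᵥ b 1 = b 2 := by simp [hb, pow_two, mul_assoc]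
  have b3 : n *ᵥ b 2 = b 3 := by
    rw [hb, hb, mulVec_mulVec, ← pow_succ']; rfl
  have b4 : n *ᵥ b 3 = 0 := by
    rw [hb, mulVec_mulVec, ← pow_succ']; exact (congrArg (· *ᵥ _) h4).trans (zero_mulVec _)
  obtain ⟨κ, hκ⟩ : ∃ κ : F, u₀ = κ • b 3 := by
    have h1 := b.sum_repr u₀
    have h2 := congrArg b.repr nu
    rw [← h1] at h2
    simp only [Fin.sum_univ_four, mulVec_add, mulVec_smul, b1, b2, b3, b4, map_add, map_smul,
      b.repr_self, map_zero] at h2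
    have e1 := DFunLike.congr_fun h2 1
    have e2 := DFunLike.congr_fun h2 2
    have e3 := DFunLike.congr_fun h2 3
    simp at e1 e2 e3
    rw [Fin.sum_univ_four, e1, e2, e3] at h1
    exact ⟨b.repr u₀ 3, h1.symm.trans (by simp only [zero_smul, zero_add])⟩
  have κ0 : κ ≠ 0 := fun h0 => hv (by rw [hκ, h0, zero_smul, mulVec_zero, mulVec_zero])
  have c0 : w *ᵥ b 0 = -(κ • b 3) := by rw [← b0, mulVec_mulVec, w2, neg_mulVec, one_mulVec, hκ]
  have c3 : w *ᵥ b 3 = κ⁻¹ • b 0 := by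
    rw [eq_inv_smul_iff₀ κ0, ← mulVec_smul, ← hκ, b0]
  have c1 : w *ᵥ b 1 = -b 0 + b 1 - b 2 + (1 + κ) • b 3 := by
    have h1 : w * (1 + n) * w * (1 + n) = -((1 - n + n * n - n * n * n) * w) := by
      have h5 : n * n * n * n = 0 := by rw [← h4]; noncomm_ring
      linear_combination (norm := noncomm_ring) -((1 - n + n * n - n * n * n) * w3 * w) +
        (1 - n + n * n - n * n * n) * (1 + n) * w * (1 + n) * w * (1 + n) * w2 +
        h5 * w * (1 + n) * w * (1 + n)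
    have h2 := congrArg (· *ᵥ u₀) h1
    simp only [← mulVec_mulVec, add_mulVec, sub_mulVec, neg_mulVec, one_mulVec, nu, add_zero, b0,
      b1, b2, b3, mulVec_add, c0] at h2
    linear_combination (norm := module) h2
  have c2 : w *ᵥ b 2 = κ⁻¹ • b 0 + (2 : F) • b 1 - b 2 + (1 + 2 * κ) • b 3 := by
    have h2 := congrArg (w *ᵥ ·) c1
    simp only [mulVec_mulVec, w2, neg_mulVec, one_mulVec, mulVec_add, mulVec_sub, mulVec_neg,
      mulVec_smul, c0, c3] at h2
    rw [c1, add_smul 1 κ (κ⁻¹ • b 0), smul_inv_smul₀ κ0] at h2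
    linear_combination (norm := module) h2
  let e := ZMod.ringEquiv F hF
  let Θ : N4 ≃+* M4 F := e.mapMatrix.trans
    ((Matrix.toLinAlgEquiv b).trans LinearMap.toMatrixAlgEquiv').toRingEquiv
  have hΘ : ∀ M j, Θ M *ᵥ b j = ∑ i, e (M i j) • b i := fun M j => by
    change LinearMap.toMatrix' (Matrix.toLin b b (M.map e)) *ᵥ b j = _
    rw [LinearMap.toMatrix'_mulVec, Matrix.toLin_self]
    rfl
  have ΘX : Θ X0 = 1 + n := eq_of_basis b fun j => by
    rw [hΘ, add_mulVec, one_mulVec]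
    fin_cases j <;> simp [X0, Fin.sum_univ_four, b1, b2, b3, b4]
  obtain ⟨k, rfl⟩ := e.surjective κ
  have k0 : k ≠ 0 := fun h0 => κ0 (by rw [h0, map_zero])
  have ki : (e k)⁻¹ = e k ^ 5 := by
    have := FiniteField.pow_card_sub_one_eq_one _ κ0
    rw [hF] at this
    exact inv_eq_of_mul_eq_one_right (by rw [← pow_succ']; exact this)
  have ΘW : Θ (W0 k) = w := eq_of_basis b fun j => by
    rw [hΘ]
    fin_cases j <;> simp [W0, Fin.sum_univ_four, c0, c1, c2, c3, ki, map_ofNat, sub_eq_add_neg]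
  obtain rfl : k = 1 := W0_pin k k0 (Θ.injective (by
    simp only [map_mul, map_one, ΘX, ΘW, w3]))
  rw [← hn] at ΘX
  rw [← hw] at ΘW
  refine ⟨Θ, ΘX, hw ▸ ΘW, fun M => ?_⟩
  have base : ∀ (M : N4) (g : SL(2, K)), Θ M = r g → ad0 M * M = 1 →
      ad (r g) = Θ (ad0 (Θ.symm (r g))) := fun M g h1 h2 => by
    rw [h.adr, ← h1, Θ.symm_apply_apply]
    refine (left_inv_eq_right_inv (a := r g) ?_ ?_).symm
    · rw [← h1, ← map_mul, h2, map_one]
    · rw [← map_mul, mul_inv_cancel, map_one]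
  have key : ∀ y ∈ Submodule.span F (Set.range r), ad y = Θ (ad0 (Θ.symm y)) := fun y hy => by
    induction hy using Submodule.span_induction with
    | mem y hy =>
      obtain ⟨g, rfl⟩ := hy
      exact gen_ind (nat_cast_of_card hK) (fun g => ad (r g) = Θ (ad0 (Θ.symm (r g))))
        (base _ _ ΘX ad0_X) (base _ _ ΘW ad0_W)
        (fun a b ha hb => by rw [map_mul, ad_mul, ha, hb, map_mul, ad0_mul, map_mul]) g
    | zero => simp [ad_zero, ad0]
    | add x y _ _ hx hy => rw [ad_add, hx, hy, map_add, ad0_add, map_add]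
    | smul c x _ hx =>
      obtain ⟨m, rfl⟩ := nat_cast_of_card hF c
      rw [ad_smul, hx, Nat.cast_smul_eq_nsmul, Nat.cast_smul_eq_nsmul, map_nsmul, ad0_nsmul,
        map_nsmul]
  simpa using key (Θ M) (h.span ▸ Submodule.mem_top)

lemma sq_mul_of_card [Fintype K] (hK : Fintype.card K = 7) {t : K} (ht : t ≠ 0) :
    ∃ s : K, s ≠ 0 ∧ (s ^ 2 * t = 1 ∨ s ^ 2 * t = -1) := by
  obtain ⟨k, rfl⟩ := (ZMod.ringEquivOfPrime K (by norm_num) hK).surjective t
  obtain ⟨s, h1, h2⟩ := (by decide : ∀ k : ZMod 7, k ≠ 0 →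
    ∃ s : ZMod 7, s ≠ 0 ∧ (s ^ 2 * k = 1 ∨ s ^ 2 * k = -1)) k fun h0 => ht (by rw [h0, map_zero])
  refine ⟨ZMod.ringEquivOfPrime K (by norm_num) hK s, by simpa using h1, ?_⟩
  rw [← map_pow, ← map_mul]
  exact h2.imp (fun h => by rw [h, map_one]) fun h => by rw [h, map_neg, map_one]

theorem l27Stmt : L27Stmt.{u} := by
  intro F _ _ H P h K _ _ hK hF hP
  obtain ⟨ρ, hρ⟩ := exists_rep hP
  have h2 : (2 : K) ≠ 0 := two_ne_of_odd (by rw [hK]; decide)
  have hr := hρ.mrep h h2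
  obtain ⟨Θ, ΘX, ΘW, hΘ⟩ := hr.model hK hF
  rw [mat_apply] at ΘX ΘW
  have : Fact (Nat.Prime 7) := ⟨by norm_num⟩
  have hH : ∀ g, ρ g ∈ H := fun g => h.core.le (hρ.mem g)
  have gen := gen_ind (nat_cast_of_card hK)
  -- `H = P`
  have s3 : ∀ x ∈ H, x * ρ (uu 1) * x⁻¹ = ρ (uu 1) → x ∈ P := fun x hx h1 => by
    obtain ⟨y, hy⟩ := hρ.surj _ (h.core.normal x hx _ (hρ.mem (ll (-1))))
    have h3 : uu 1 * ll (-1) * uu 1 = ll (-1) * uu 1 * ll (-1 : K) := by
      apply SL2_ext <;> simp [ent]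
    obtain ⟨c, hc⟩ := braid_conj (y := y) (hρ.inj (by
      have := congrArg (fun g => x * ρ g * x⁻¹) h3
      simp only [map_mul] at this ⊢
      rw [hy, ← h1]
      simpa only [mul_assoc, inv_mul_cancel_left] using this)) (fun h0 => by
        rw [h0, ← h1, mul_left_inj, mul_right_inj] at hy
        have := congrArg (fun g : SL(2, K) => g 0 1) (hρ.inj hy)
        simp [ent] at this)
    have h4 : ρ (uu c) * x * ρ (uu 1) = ρ (uu 1) * (ρ (uu c) * x) := by
      rw [mul_assoc, mul_inv_eq_iff_eq_mul.1 h1, ← mul_assoc, ← map_mul, uu_comm, map_mul,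
        mul_assoc]
    have h5 : ρ (uu c) * x * ρ (ll (-1)) = ρ (ll (-1)) * (ρ (uu c) * x) := by
      rw [mul_assoc, mul_inv_eq_iff_eq_mul.1 hy.symm, ← mul_assoc, ← map_mul,
        mul_inv_eq_iff_eq_mul.1 hc, map_mul, mul_assoc]
    have h6 : mm 1 one_ne_zero = uu 1 * ll (-1) * uu (1 : K) := by
      apply SL2_ext <;> simp [ent]
    have h7 : ∀ a b, ρ (uu c) * x * ρ a = ρ a * (ρ (uu c) * x) →
        ρ (uu c) * x * ρ b = ρ b * (ρ (uu c) * x) →
        ρ (uu c) * x * ρ (a * b) = ρ (a * b) * (ρ (uu c) * x) := fun a b ha hb => by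
      rw [map_mul, ← mul_assoc, ha, mul_assoc, hb, mul_assoc]
    refine (P.mul_mem_cancel_left (hρ.mem (uu c))).1 ?_
    rcases h.eq_or_of_comm (h.spH (H.mul_mem (hH (uu c)) hx)) (fun z hz => by
      obtain ⟨g, rfl⟩ := hρ.surj z hz
      exact gen (fun g => ρ (uu c) * x * ρ g = ρ g * (ρ (uu c) * x)) h4
        (h6 ▸ h7 _ _ (h7 _ _ h4 h5) h4) h7 g) with h8 | h8
    · exact h8 ▸ P.one_mem
    · have h9 : ρ (-1) = -1 := Units.ext hr.neg
      exact h8 ▸ h9 ▸ hρ.mem (-1)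
  have s2 : ∀ x ∈ H, x * ρ (uu 1) * x⁻¹ ≠ ρ (uu (-1)) := fun x hx h1 => by
    obtain ⟨M, hM⟩ := Θ.surjective (x : M4 F)
    refine not_real (M := M) (Θ.injective ?_) (Θ.injective ?_)
    · rw [map_mul, ← hΘ, hM, map_one]; exact mem_sp_iff.1 (h.spH hx)
    · rw [map_mul, map_mul, hM, ΘX, ← Units.val_mul, ← Units.val_mul, mul_assoc,
        mul_inv_eq_iff_eq_mul.1 h1, uu_neg, map_inv, mul_inv_cancel_left]
  have s1 : ∀ x ∈ H, x ∈ P := fun x hx => by
    obtain ⟨y, hy⟩ := hρ.surj _ (h.core.normal x hx _ (hρ.mem (uu 1)))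
    have h7 : uu (1 : K) ^ 7 = 1 := uu_pow_char (n := 1) hK 1
    obtain ⟨c, t, hc⟩ := exists_conj_eq_uu (n := 1) (p := 7) (x := y) (k := 1) hK (hρ.inj (by
      rw [pow_one, map_pow, hy, conj_pow, ← map_pow, h7, map_one, mul_one, mul_inv_cancel]))
    have ht : t ≠ 0 := fun h0 => by
      rw [h0, uu_zero, mul_inv_eq_one, mul_eq_left] at hc
      rw [hc, map_one, eq_comm, mul_inv_eq_one, mul_eq_left] at hy
      exact one_ne_zero (uu_eq_one_iff.1 (hρ.inj (hy.trans (map_one ρ).symm)))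
    obtain ⟨s, hs, h3⟩ := sq_mul_of_card hK ht
    have h4 : ρ (hh s hs * c) * x * ρ (uu 1) * (ρ (hh s hs * c) * x)⁻¹ = ρ (uu (s ^ 2 * t)) := by
      rw [← hh_uu hs, ← hc]
      simp only [map_mul, map_inv, hy, _root_.mul_inv_rev, mul_assoc]
    have h5 := H.mul_mem (hH (hh s hs * c)) hx
    rcases h3 with h3 | h3 <;> rw [h3] at h4
    · exact (P.mul_mem_cancel_left (hρ.mem _)).1 (s3 _ h5 h4)
    · exact absurd h4 (s2 _ h5)
  -- the overgroup
  let S : Set (GL I4 F) := {g | ∃ c ∈ codes, (g : M4 F) = Θ (dig c)}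
  have hS : ∀ (g : GL I4 F) (G : N4), Θ G = g → (∀ c ∈ codes, ∃ d ∈ codes, G * dig c = dig d * G) →
      g ∈ Subgroup.normalizer S := fun g G hg hG => by
    refine Subgroup.mem_normalizer_fintype ?_
    rintro y ⟨c, hc, hy⟩
    obtain ⟨d, hd, h1⟩ := hG c hc
    refine ⟨d, hd, ?_⟩
    rw [Units.val_mul, Units.val_mul, hy, ← hg, ← map_mul, h1, map_mul, hg, mul_assoc,
      Units.mul_inv, mul_one]
  have sp : ∀ G : N4, ad0 G * G = 1 → ad (Θ G) * Θ G = 1 := fun G hG => by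
    rw [hΘ, ← map_mul, hG, map_one]
  rcases h.max.2 (Subgroup.normalizer S ⊓ spGL 2 F) (fun x hx => ⟨by
      obtain ⟨g, rfl⟩ := hρ.surj x (s1 x hx)
      exact gen (fun g => ρ g ∈ Subgroup.normalizer S) (hS _ _ ΘX codes_X) (hS _ _ ΘW codes_W)
        (fun a b ha hb => map_mul ρ a b ▸ Subgroup.mul_mem _ ha hb) g, h.spH hx⟩) inf_le_right
    with h3 | h3
  · obtain ⟨g, hg⟩ := hρ.surj _ (s1 _ (h3.le ⟨hS (mkSp _ (sp _ ad0_C)) C0 rfl codes_C,
      mkSp_mem _ _⟩))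
    have h4 : mat ρ g = Θ C0 := congrArg Units.val hg
    have h5 : g ^ 5 = 1 := hr.inj (by
      rw [show g ^ 5 = g * g * (g * g) * g by simp only [pow_succ, pow_zero, one_mul, mul_assoc]]
      simp only [map_mul, h4, map_one]
      simp only [← map_mul, C0_pow, map_one])
    have h6 : g ^ 7 = g ^ 2 := by rw [show 7 = 5 + 2 from rfl, pow_add, h5, one_mul]
    have h7 : ∀ n : ℕ, Nat.Coprime n 5 → g ^ n = 1 → False := fun n hn h0 => by
      have := pow_gcd_eq_one.2 ⟨h0, h5⟩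
      rw [hn.gcd_eq_one, pow_one] at this
      rw [this, map_one] at h4
      exact C0_ne (Θ.injective (h4.symm.trans (map_one Θ).symm))
    have h8 := pow_card_cases h2 g
    rw [hK, h6] at h8
    rcases h8 with h8 | h8 | h8 | h8
    · exact h7 1 (by norm_num) (by simpa [pow_two] using h8)
    · exact h7 3 (by norm_num) (by rw [pow_succ, h8, inv_mul_cancel])
    · exact h7 2 (by norm_num) h8
    · exact h7 4 (by norm_num) (by rw [show 4 = 2 * 2 from rfl, pow_mul, h8]; simp)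
  · obtain ⟨c, hc, e1, e2, e3⟩ := codes_T
    have h4 := (h3.ge (mkSp_mem _ (sp _ ad0_T))).1
    obtain ⟨d, hd, h5⟩ := (Subgroup.mem_set_normalizer_iff.1 h4 ⟨Θ (dig c), Θ (-dig c),
      by rw [← map_mul, e1, map_one], by rw [← map_mul, e2, map_one]⟩).1 ⟨c, hc, rfl⟩
    rw [Units.val_mul, Units.mul_inv_eq_iff_eq_mul, Units.val_mul] at h5
    exact e3 d hd (Θ.injective (by rw [map_mul, map_mul]; exact h5))

end Cfsg.Agent.H35.Sp4
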