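import Cfsg.Agent.H25.S4Defs
import Cfsg.Agent.H25.L3Basic
import Cfsg.Agent.H82.SL2

/-! Representations `SL₂(K) → Sp₄(F)`: the set-up and the cross characteristic case. -/

set_option autoImplicit false

namespace Cfsg.Agent.H35.Sp4

open Matrix Cfsg.Geo Cfsg.Agent.H25 Cfsg.Agent.H25.S4 Cfsg.Agent.H82
open scoped MatrixGroups

universe u

variable {F K : Type*} [Field F] [Field K]

/-- A faithful absolutely irreducible symplectic representation of degree four. -/
structure MRep (r : SL(2, K) →* M4 F) : Prop where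
  two : (2 : F) ≠ 0
  inj : Function.Injective r
  adr : ∀ g, ad (r g) = r g⁻¹
  neg : r (-1) = -1
  schur : ∀ a : M4 F, (∀ g, a * r g = r g * a) → ∃ c : F, a = c • (1 : M4 F)
  irr : ∀ W : Submodule F (I4 → F), (∀ g, ∀ v ∈ W, r g *ᵥ v ∈ W) → W = ⊥ ∨ W = ⊤
  span : Submodule.span F (Set.range r) = ⊤

/-- `ρ` is an isomorphism onto `P`. -/
structure Rep (P : Subgroup (GL I4 F)) (ρ : SL(2, K) →* GL I4 F) : Prop where
  inj : Function.Injective ρ
  mem : ∀ g, ρ g ∈ P
  surj : ∀ x ∈ P, ∃ g, ρ g = x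

lemma exists_rep {P : Subgroup (GL I4 F)} (h : Nonempty (P ≃* SL(2, K))) :
    ∃ ρ : SL(2, K) →* GL I4 F, Rep P ρ := by
  obtain ⟨e⟩ := h
  refine ⟨P.subtype.comp e.symm.toMonoidHom, P.subtype_injective.comp e.symm.injective,
    fun g => (e.symm g).2, fun x hx => ⟨e ⟨x, hx⟩, ?_⟩⟩
  simp

/-- The matrix valued representation. -/
def mat (ρ : SL(2, K) →* GL I4 F) : SL(2, K) →* M4 F := (Units.coeHom (M4 F)).comp ρ

lemma mat_apply (ρ : SL(2, K) →* GL I4 F) (g : SL(2, K)) : mat ρ g = (ρ g : M4 F) := rfl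

lemma neg_one_ne_one (h2 : (2 : K) ≠ 0) : (-1 : SL(2, K)) ≠ 1 := fun h => by
  have := congrArg (fun g : SL(2, K) => g 0 0) h
  simp only [ent] at this
  exact h2 (by linear_combination -this)

lemma Rep.mrep [Fintype F] {H P : Subgroup (GL I4 F)} {ρ : SL(2, K) →* GL I4 F} (hρ : Rep P ρ)
    (h : Ctx H P) (h2 : (2 : K) ≠ 0) : MRep (mat ρ) where
  two := h.two
  inj := Units.val_injective.comp hρ.inj
  adr g := by rw [mat_apply, mat_apply, ad_coe (h.sp (hρ.mem g)), map_inv]
  neg := by
    rcases h.eq_or_of_comm (h.sp (hρ.mem (-1))) (fun x hx => by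
      obtain ⟨g, rfl⟩ := hρ.surj x hx
      rw [← map_mul, ← map_mul, neg_one_mul, mul_neg_one]) with h1 | h1
    · exact absurd (hρ.inj (h1.trans (map_one ρ).symm)) (neg_one_ne_one h2)
    · rw [mat_apply, h1]; simp
  schur a ha := h.schur fun x hx => by
    obtain ⟨g, rfl⟩ := hρ.surj x hx
    exact ha g
  irr W hW := h.irr W fun x hx => by
    obtain ⟨g, rfl⟩ := hρ.surj x hx
    exact hW g
  span := by
    have h1 := galg_toSubmodule P
    rw [h.top, Algebra.top_toSubmodule] at h1
    rw [h1]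
    congr 1
    ext x
    constructor
    · rintro ⟨g, rfl⟩
      exact ⟨ρ g, hρ.mem g, rfl⟩
    · rintro ⟨y, hy, rfl⟩
      obtain ⟨g, rfl⟩ := hρ.surj y hy
      exact ⟨g, rfl⟩

lemma trace_conj (r : SL(2, K) →* M4 F) (g x : SL(2, K)) :
    (r (g * x * g⁻¹)).trace = (r x).trace := by
  rw [map_mul, map_mul, trace_mul_cycle, ← map_mul, inv_mul_cancel, map_one, Matrix.one_mul]

lemma MRep.trace_inv {r : SL(2, K) →* M4 F} (h : MRep r) (g : SL(2, K)) :
    (r g⁻¹).trace = (r g).trace := by rw [← h.adr, trace_ad]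

lemma MRep.quad {r : SL(2, K) →* M4 F} (h : MRep r) (g : SL(2, K)) :
    ∃ c : F, (r g + r g⁻¹) * (r g + r g⁻¹) = (r g).trace • (r g + r g⁻¹) + c • (1 : M4 F) := by
  obtain ⟨c, hc⟩ := sa_quad h.two (x := r g + r g⁻¹) (by rw [ad_add, h.adr, h.adr, inv_inv, add_comm])
  refine ⟨c, ?_⟩
  rw [hc, trace_add, h.trace_inv, ← two_mul, mul_div_cancel_left₀ _ h.two]

section Cross

lemma seven_aux (h2 : (2 : F) ≠ 0) (h7 : (7 : F) ≠ 0) {s : M4 F} {a c : F}
    (hq : s * s = a • s + c • (1 : M4 F)) (e1 : a ^ 2 + 2 * c - 4 = a)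
    (e2 : a * (a ^ 2 + 3 * c - 4) = 0)
    (h4 : s * s * s * s - s * s * s - (4 : F) • (s * s) + (3 : F) • s + (2 : F) • (1 : M4 F) = 0) :
    s = (2 : F) • (1 : M4 F) := by
  have h3 : s * s * s = (a * a + c) • s + (a * c) • (1 : M4 F) := by
    rw [hq, add_mul, smul_mul_assoc, smul_mul_assoc, hq, Matrix.one_mul]; module
  have h4' : s * s * s * s = ((a * a + c) * a + a * c) • s + ((a * a + c) * c) • (1 : M4 F) := by
    rw [h3, add_mul, smul_mul_assoc, smul_mul_assoc, hq, Matrix.one_mul]; module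
  rw [h4', h3, hq] at h4
  have one_ne : ∀ k : F, k • (1 : M4 F) = 0 → k = 0 := fun k hk =>
    (smul_eq_zero.1 hk).resolve_right one_ne_zero
  rcases mul_eq_zero.1 e2 with h0 | h0
  · subst h0
    have hc : c = 2 := mul_left_cancel₀ h2 (by linear_combination e1)
    subst hc
    linear_combination (norm := module) h4
  · have hc : c = -a := by linear_combination h0 - e1
    subst hc
    have h5 : (a - 4) * (a + 1) = 0 := by linear_combination h0
    rcases mul_eq_zero.1 h5 with h6 | h6
    · obtain rfl : a = 4 := sub_eq_zero.1 h6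
      have : (7 : F) • (s - (2 : F) • (1 : M4 F)) = 0 := by linear_combination (norm := module) h4
      exact sub_eq_zero.1 ((smul_eq_zero.1 this).resolve_left h7)
    · obtain rfl : a = -1 := eq_neg_of_add_eq_zero_left h6
      have h8 : (2 : F) • s = -1 := by linear_combination (norm := module) h4
      have h9 : ((2 : F) • s) * ((2 : F) • s) = (4 : F) • (s * s) := by
        rw [smul_mul_smul_comm]; norm_num
      rw [h8, hq] at h9
      have h10 : (5 : F) = 0 := one_ne _ (by
        rw [neg_mul_neg, Matrix.one_mul] at h9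
        linear_combination (norm := module) (2 : F) • h8 - h9)
      have h11 : (2 : F) • (s - (2 : F) • (1 : M4 F)) = -((5 : F) • (1 : M4 F)) := by
        linear_combination (norm := module) h8
      rw [h10, zero_smul, neg_zero] at h11
      exact sub_eq_zero.1 ((smul_eq_zero.1 h11).resolve_left h2)

lemma MRep.not_seven {r : SL(2, K) →* M4 F} (h : MRep r) (hK : (7 : K) = 0) (h7 : (7 : F) ≠ 0) :
    False := by
  have h3 : (3 : K) ≠ 0 := fun h3 => one_ne_zero (by linear_combination hK - 2 * h3 : (1 : K) = 0)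
  have h2 : (2 : K) ≠ 0 := fun h2 => one_ne_zero (by linear_combination hK - 3 * h2 : (1 : K) = 0)
  set x : K → M4 F := fun t => r (uu t) with hx
  have xm : ∀ s t, x s * x t = x (s + t) := fun s t => by simp only [hx, uu_add, map_mul]
  have x0 : x 0 = 1 := by simp only [hx, uu_zero, map_one]
  have xi : ∀ t, r (uu t)⁻¹ = x (-t) := fun t => by simp only [hx, uu_neg]
  have tn : ∀ t, (x (-t)).trace = (x t).trace := fun t => by rw [← xi, h.trace_inv]
  have t2 : (x 2).trace = (x 1).trace := by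
    have := trace_conj r (hh 3 h3) (uu 1)
    rwa [hh_uu, show (3 : K) ^ 2 * 1 = 2 by linear_combination hK] at this
  have t3 : (x 3).trace = (x 1).trace := by
    have := trace_conj r (hh 2 h2) (uu (-1))
    rw [hh_uu, show (2 : K) ^ 2 * (-1) = 3 by linear_combination -hK] at this
    exact this.trans (tn 1)
  obtain ⟨c, hc⟩ := h.quad (uu 1)
  rw [xi] at hc
  change (x 1 + x (-1)) * (x 1 + x (-1)) = (x 1).trace • (x 1 + x (-1)) + _ at hc
  set s := x 1 + x (-1) with hs
  set a := (x 1).trace with ha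
  have s2 : s * s = x 2 + x (-2) + (2 : F) • (1 : M4 F) := by
    simp only [hs, add_mul, mul_add, xm]
    norm_num [x0]
    module
  have s3 : s * s * s = x 3 + x (-3) + (3 : F) • s := by
    rw [s2]
    simp only [hs, add_mul, mul_add, xm, smul_mul_assoc, Matrix.one_mul]
    norm_num
    module
  have s4 : s * s * s * s = x (-3) + x 3 + x 2 + x (-2) + (3 : F) • (s * s) := by
    rw [s3, add_mul, smul_mul_assoc]
    simp only [hs, add_mul, mul_add, xm]
    rw [show (3 : K) + 1 = -3 by linear_combination hK,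
      show (-3 : K) + -1 = 3 by linear_combination -hK]
    norm_num
    module
  have ts : s.trace = 2 * a := by rw [hs, trace_add, tn]; ring
  have e1 := congrArg trace (hc.symm.trans s2)
  simp only [trace_add, trace_smul, tn, t2, ts, trace_one4, smul_eq_mul] at e1
  have e2 := congrArg trace s3
  rw [hc, add_mul, smul_mul_assoc, smul_mul_assoc, hc, Matrix.one_mul] at e2
  simp only [trace_add, trace_smul, tn, t3, ts, trace_one4, smul_eq_mul] at e2
  have key := seven_aux h.two h7 hc (mul_left_cancel₀ h.two (by linear_combination e1))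
    (mul_left_cancel₀ h.two (by linear_combination e2)) (by rw [s4, s3, s2]; module)
  have n2 : (x 1 - 1) * (x 1 - 1) = 0 := by
    have := congrArg (x 1 * ·) key
    simp only [hs, mul_add, xm, add_neg_cancel, x0, mul_smul_comm, Matrix.mul_one] at this
    rw [sub_mul, mul_sub, mul_sub, xm]
    simp only [Matrix.mul_one, Matrix.one_mul]
    linear_combination (norm := module) this
  have pw : ∀ n : ℕ, x n = 1 + (n : F) • (x 1 - 1) := fun n => by
    induction n with
    | zero => simp [x0]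
    | succ n ih =>
      rw [Nat.cast_succ, ← xm, ih, Nat.cast_succ, add_mul, smul_mul_assoc, Matrix.one_mul,
        show (x 1 - 1) * x 1 = (x 1 - 1) * (x 1 - 1) + (x 1 - 1) by noncomm_ring, n2]
      module
  have p7 := pw 7
  rw [Nat.cast_ofNat, Nat.cast_ofNat, hK, x0, left_eq_add, smul_eq_zero, sub_eq_zero] at p7
  have := h.inj ((p7.resolve_left h7).trans (map_one r).symm)
  exact one_ne_zero (uu_eq_one_iff.1 this)

lemma card_le_nine [Fintype K] (ρ : SL(2, K) →* GL I4 F) (hρ : Function.Injective ρ)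
    (hl : (Fintype.card K : F) ≠ 0) : Fintype.card K ≤ 10 := by
  by_contra hq
  set E := AlgebraicClosure F
  let f : F →+* E := algebraMap F E
  obtain ⟨γ, hγ⟩ := IsCyclic.exists_generator (α := Kˣ)
  have ho : orderOf γ = Fintype.card K - 1 := by
    rw [orderOf_eq_card_of_forall_mem_zpowers hγ, Nat.card_units, Nat.card_eq_fintype_card]
  have := le_card_of_frob (E := E) ((GeneralLinearGroup.map f).comp ρ) (UU K)
    (h := hh (γ : K) γ.ne_zero) (x₀ := uu 1) (l := Fintype.card K) (k := 5) ?_ ?_ (uu_mem 1)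
    ?_ ?_ ?_ ?_
  · simp at this
  · rintro _ ⟨s, rfl⟩ _ ⟨t, rfl⟩
    exact uu_comm s t
  · exact BB_le_normalizer (hh_10 _ _)
  · intro h1
    have h2 : ρ (uu 1) = 1 := by
      ext i j
      have h3 := congrArg (fun g : GL I4 E => (g : M4 E) i j) (h1.trans (map_one _).symm :
        GeneralLinearGroup.map f (ρ (uu 1)) = GeneralLinearGroup.map f 1)
      exact f.injective h3
    exact one_ne_zero (uu_eq_one_iff.1 (hρ (h2.trans (map_one ρ).symm)))
  · rw [← map_natCast f, Ne, map_eq_zero_iff f f.injective]; exact hl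
  · rw [uu_pow, FiniteField.cast_card_eq_zero, zero_mul, uu_zero]
  · intro d hd hd'
    have h1 : ((γ : K) ^ d) ^ 2 - 1 ≠ 0 := by
      rw [sub_ne_zero, ← pow_mul, ← Units.val_pow_eq_pow_val, Ne, Units.val_eq_one]
      exact pow_ne_one_of_lt_orderOf (by omega) (by omega)
    have h2 : ∀ n : ℕ, hh (γ : K) γ.ne_zero ^ n = hh ((γ : K) ^ n) (pow_ne_zero n γ.ne_zero) :=
      fun n => by
        induction n with
        | zero => simp [hh_one]
        | succ n ih => rw [pow_succ, ih, hh_mul_hh]; simp only [pow_succ]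
    refine ⟨uu (((γ : K) ^ d) ^ 2 - 1)⁻¹, uu_mem _, ?_⟩
    rw [h2, hh_uu, ← uu_neg, ← uu_add]
    congr 1
    field_simp
    ring

end Cross

lemma two_ne_of_odd [Fintype K] (h : Odd (Fintype.card K)) : (2 : K) ≠ 0 := fun h2 => by
  obtain ⟨k, hk⟩ := h
  have := FiniteField.cast_card_eq_zero K
  rw [hk] at this
  push_cast at this
  exact one_ne_zero (by linear_combination this - k * h2 : (1 : K) = 0)

theorem crossStmt : CrossStmt.{u} := by
  intro F _ _ H P h K _ _ hodd h3 hl hP
  obtain ⟨ρ, hρ⟩ := exists_rep hP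
  have h1 := card_le_nine ρ hρ.inj hl
  have h7 : Fintype.card K ≠ 7 := fun h7 => by
    have := FiniteField.cast_card_eq_zero K
    rw [h7] at this hl
    exact (hρ.mrep h (two_ne_of_odd hodd)).not_seven (by exact_mod_cast this) (by exact_mod_cast hl)
  obtain ⟨k, hk⟩ := hodd
  omega

end Cfsg.Agent.H35.Sp4
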