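/-
Tits' amalgam theorem: a group with a (B,N)-pair is the colimit of its parabolic subgroups of rank
at most two.
-/
import Mathlib
import Cfsg.Agent.H35.BNParabolic
import Cfsg.Agent.H35.CoxCoset
import Cfsg.Agent.H75.LieModel

set_option autoImplicit false

namespace Cfsg.Agent.H35.BN

variable {G H : Type*} [Group G] [Group H] {P : BNPair G}

variable (P) in
/-- Values of `φ` along galleries of minimal length. -/
inductive Gal (φ : G → H) : G → H → Prop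
  | base {b : G} : b ∈ P.B → Gal φ b (φ b)
  | step {g p : G} {h : H} (i : P.S) : Gal φ g h → p ∈ cell P ((gens P).s i) →
      (gens P).len (bruhat P g * (gens P).s i) = (gens P).len (bruhat P g) + 1 →
      Gal φ (g * p) (h * φ p)

/-- `φ` is multiplicative on `M`. -/
def MulOn (φ : G → H) (M : Subgroup G) : Prop := ∀ a ∈ M, ∀ b ∈ M, φ (a * b) = φ a * φ b

theorem cell_s_subset {J : Set P.S} {i : P.S} (hi : i ∈ J) {p : G}
    (hp : p ∈ cell P ((gens P).s i)) : p ∈ P.parabolic (Subtype.val '' J) :=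
  (mem_parabolic_iff_of_mem_cell hp).2 (s_mem_WJ_iff.2 hi)

theorem bruhat_mul_s {i : P.S} {g p : G} (hp : p ∈ cell P ((gens P).s i))
    (h : (gens P).len (bruhat P g * (gens P).s i) = (gens P).len (bruhat P g) + 1) :
    bruhat P (g * p) = bruhat P g * (gens P).s i :=
  bruhat_eq_iff.2 (mul_cell_s_mem_of_le (by omega) hp (mem_cell_bruhat g))

section
variable {φ : G → H} (hB : MulOn φ P.B)
  (h2 : ∀ i j : P.S, MulOn φ (P.parabolic (Subtype.val '' {i, j})))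
include hB h2

theorem Gal.mul_B {g b : G} {h : H} (e : Gal P φ g h) (hb : b ∈ P.B) :
    Gal P φ (g * b) (h * φ b) := by
  cases e with
  | base h1 => exact hB _ h1 _ hb ▸ Gal.base (mul_mem h1 hb)
  | step i h1 h3 h4 =>
    rw [mul_assoc, mul_assoc, ← h2 i i _ (cell_s_subset (by simp) h3) _ (B_le_parabolic _ hb)]
    exact h1.step i (mul_mem_cell_right hb h3) h4

theorem Gal.mul_par {g : G} {h : H} (e : Gal P φ g h) {J : Set P.S}
    (hJ : MulOn φ (P.parabolic (Subtype.val '' J))) (hg : (gens P).IsDRed ∅ J (bruhat P g)) {a : G}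
    (ha : a ∈ P.parabolic (Subtype.val '' J)) : Gal P φ (g * a) (h * φ a) := by
  induction hn : (gens P).len (bruhat P a) using Nat.strong_induction_on generalizing a with
  | _ n ih =>
  by_cases h1 : bruhat P a = 1
  · exact e.mul_B hB h2 (bruhat_eq_one_iff.1 h1)
  have hu := mem_parabolic_iff_bruhat.1 ha
  obtain ⟨i, hi, h3⟩ := (exchange P).exists_right_descent_mem hu h1
  have hu' : bruhat P a * (gens P).s i ∈ WJ P J := mul_mem hu (s_mem_WJ_iff.2 hi)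
  obtain ⟨a', h4, p, h5, rfl⟩ := exists_mul_of_mem_cell (x := a) (w := bruhat P a * (gens P).s i)
    (w' := (gens P).s i) (by simpa using mem_cell_bruhat a)
  have h6 := (mem_parabolic_iff_of_mem_cell h4).2 hu'
  have h7 := (exchange P).len_mul_of_isDRed hg hu'
  rw [← mul_assoc, hJ _ h6 _ (cell_s_subset hi h5), ← mul_assoc]
  refine (ih _ (by rw [bruhat_eq_iff.2 h4]; omega) h6 rfl).step i h5 ?_
  rw [bruhat_eq_iff.2 (mul_mem_cell_of_len_add h7 (mem_cell_bruhat g) h4), h7, mul_assoc,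
    InvGen.s_mul_s_cancel_right, (exchange P).len_mul_of_isDRed hg hu]
  omega

omit hB h2 in
theorem exists_gal (φ : G → H) (g : G) : ∃ h, Gal P φ g h := by
  suffices ∀ w : W P, ∀ g ∈ cell P w, ∃ h, Gal P φ g h from this _ _ (mem_cell_bruhat g)
  intro w
  refine (gens P).induction_right (p := fun w => ∀ g ∈ cell P w, ∃ h, Gal P φ g h) w
    (fun g hg => ⟨_, .base (mem_cell_one.1 hg)⟩) fun i w h1 ih g hg => ?_
  obtain ⟨a, h4, p, h5, rfl⟩ := exists_mul_of_mem_cell hg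
  obtain ⟨h, e⟩ := ih a h4
  exact ⟨_, e.step i h5 (by rwa [bruhat_eq_iff.2 h4])⟩

theorem Gal.unique {g : G} {h h' : H} (e : Gal P φ g h) (e' : Gal P φ g h') : h = h' := by
  induction hn : (gens P).len (bruhat P g) using Nat.strong_induction_on generalizing g h h' with
  | _ n ih =>
  have base : ∀ {g h}, Gal P φ g h → g ∈ P.B → h = φ g := fun e hg => by
    cases e with
    | base => rfl
    | step i h1 h3 h4 =>
      rw [← bruhat_mul_s h3 h4, bruhat_eq_one_iff.2 hg, InvGen.len_one] at h4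
      omega
  by_cases hg : g ∈ P.B
  · rw [base e hg, base e' hg]
  have step : ∀ {h}, Gal P φ g h → ∃ i : P.S, ∀ j k : P.S, i = j ∨ i = k → ∀ g₀ h₀, Gal P φ g₀ h₀ →
      (gens P).IsDRed ∅ {j, k} (bruhat P g₀) → ∀ a ∈ P.parabolic (Subtype.val '' {j, k}),
      g = g₀ * a → h = h₀ * φ a := fun e => by
    cases e with
    | base h1 => exact absurd h1 hg
    | @step g₁ p h₁ i h1 h3 h4 =>
      refine ⟨i, fun j k hi g₀ h₀ e₀ h5 a ha h6 => ?_⟩
      have hp := cell_s_subset (J := {j, k}) hi h3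
      have h7 := e₀.mul_par hB h2 (h2 j k) h5 (mul_mem ha (inv_mem hp))
      rw [← mul_assoc, ← h6, mul_inv_cancel_right] at h7
      rw [ih _ (by rw [← hn, bruhat_mul_s h3 h4]; omega) h1 h7 rfl, mul_assoc,
        ← h2 j k _ (mul_mem ha (inv_mem hp)) _ hp, inv_mul_cancel_right]
  obtain ⟨i, hi⟩ := step e
  obtain ⟨j, hj⟩ := step e'
  obtain ⟨d, ⟨h1, u, hu, v, hv, h3⟩, -⟩ := (exchange P).existsUnique_isDRed ∅ {i, j} (bruhat P g)
  obtain rfl : u = 1 := by simpa using hu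
  obtain ⟨g₀, h4, a, h5, rfl⟩ := exists_mul_of_mem_cell (w := d) (w' := v) (x := g)
    (by simpa [h3] using mem_cell_bruhat (P := P) g)
  obtain ⟨h₀, e₀⟩ := exists_gal (P := P) φ g₀
  rw [← bruhat_eq_iff.2 h4] at h1
  have h6 := (mem_parabolic_iff_of_mem_cell h5).2 hv
  rw [hi i j (Or.inl rfl) _ _ e₀ h1 a h6 rfl, hj i j (Or.inr rfl) _ _ e₀ h1 a h6 rfl]

theorem Gal.mul_s {g p : G} {h : H} (e : Gal P φ g h) {i : P.S} (hp : p ∈ cell P ((gens P).s i)) :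
    Gal P φ (g * p) (h * φ p) := by
  rcases len_mul_s i (bruhat P g) with h1 | h1
  · exact e.step i hp h1
  obtain ⟨a, h4, q, h5, rfl⟩ := exists_mul_of_mem_cell (x := g) (w := bruhat P g * (gens P).s i)
    (w' := (gens P).s i) (by simpa using mem_cell_bruhat g)
  obtain ⟨h₀, e₀⟩ := exists_gal (P := P) φ a
  have h3 : (gens P).len (bruhat P a * (gens P).s i) = (gens P).len (bruhat P a) + 1 := by
    rw [bruhat_eq_iff.2 h4, InvGen.s_mul_s_cancel_right, h1]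
  have hp' := cell_s_subset (J := {i, i}) (by simp) hp
  have hq := cell_s_subset (J := {i, i}) (by simp) h5
  rw [e.unique hB h2 (e₀.step i h5 h3), mul_assoc, mul_assoc, ← h2 i i _ hq _ hp']
  exact e₀.mul_par hB h2 (h2 i i) ⟨by simp, by simp [h3]⟩ (mul_mem hq hp')

theorem Gal.mul {g g' : G} {h h' : H} (e : Gal P φ g h) (e' : Gal P φ g' h') :
    Gal P φ (g * g') (h * h') := by
  induction e' with
  | base hb => exact e.mul_B hB h2 hb
  | step i _ h3 _ ih =>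
    rw [← mul_assoc, ← mul_assoc]
    exact ih.mul_s hB h2 h3

/-- **Tits' amalgam theorem**, for a map which is multiplicative on the parabolic subgroups of
rank at most two. -/
theorem exists_hom_of_mulOn : ∃ Φ : G →* H, (∀ b ∈ P.B, Φ b = φ b) ∧
    ∀ i : P.S, ∀ p ∈ cell P ((gens P).s i), Φ p = φ p := by
  choose f hf using exists_gal (P := P) φ
  have h1 : ∀ b ∈ P.B, f b = φ b := fun b hb => (hf b).unique hB h2 (.base hb)
  refine ⟨MonoidHom.mk' f fun a b => (hf _).unique hB h2 ((hf a).mul hB h2 (hf b)), h1,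
    fun i p hp => ?_⟩
  have h3 := (Gal.base P.B.one_mem).mul_s hB h2 hp
  have h4 : φ 1 = 1 := by simpa using hB 1 P.B.one_mem 1 P.B.one_mem
  rw [h4, one_mul, one_mul] at h3
  exact (hf p).unique hB h2 h3

end

/-- Two homomorphisms on an overgroup of `B` agree if they agree on `B` and on the generators. -/
theorem eqOn_of_le {M : Subgroup G} (hM : P.B ≤ M) {K : Subgroup G} (hB : P.B ≤ K)
    (hS : ∀ s ∈ P.S, s ∈ M → s ∈ K) : M ≤ K :=
  (eq_parabolic_of_le hM).le.trans (parabolic_le_iff.2 ⟨hB, by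
    rintro _ ⟨i, hi, rfl⟩
    exact hS _ i.2 hi⟩)

theorem hom_eq_of_le {M : Subgroup G} (hM : P.B ≤ M) (f f' : M →* H)
    (hB : ∀ g : M, g.1 ∈ P.B → f g = f' g) (hS : ∀ g : M, g.1 ∈ P.S → f g = f' g) : f = f' := by
  ext ⟨g, hg⟩
  obtain ⟨x, hx, rfl⟩ := eqOn_of_le hM (K := (f.eqLocus f').map M.subtype)
    (fun b hb => ⟨⟨b, hM hb⟩, hB _ hb, rfl⟩) (fun s hs h => ⟨⟨s, h⟩, hS _ hs, rfl⟩) hg
  exact hx

theorem mem_or_mem_of_sup {M K : Subgroup G} (hM : P.B ≤ M) (hK : P.B ≤ K) {s : G} (hs : s ∈ P.S)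
    (h : s ∈ M ⊔ K) : s ∈ M ∨ s ∈ K := by
  have : M ⊔ K ≤ P.parabolic (Subtype.val '' {i : P.S | (i : G) ∈ M ∨ (i : G) ∈ K}) :=
    sup_le (eqOn_of_le hM (B_le_parabolic _) fun s hs h =>
      mem_parabolic_of_mem ⟨⟨s, hs⟩, Or.inl h, rfl⟩)
      (eqOn_of_le hK (B_le_parabolic _) fun s hs h => mem_parabolic_of_mem ⟨⟨s, hs⟩, Or.inr h, rfl⟩)
  exact (s_mem_parabolic_iff' (i := ⟨s, hs⟩)).1 (this h)

section family
variable {κ : Type*} (M : κ → Subgroup G) (hB : ∀ k, P.B ≤ M k) (φ : ∀ k, M k →* H)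
include hB

/-- **Tits' amalgam theorem** for a family of overgroups of `B` such that any two distinguished
generators lie in one member; the homomorphisms need only agree on `B` and on the generators. -/
theorem exists_hom_of_family' [Nonempty κ] (hS : ∀ s ∈ P.S, ∀ t ∈ P.S, ∃ k, s ∈ M k ∧ t ∈ M k)
    (hφ : ∀ k l g (hk : g ∈ M k) (hl : g ∈ M l), g ∈ P.B ∨ g ∈ P.S → φ k ⟨g, hk⟩ = φ l ⟨g, hl⟩) :
    ∃ Φ : G →* H, ∀ k (g : M k), Φ g = φ k g := by
  classical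
  have h0 : ∀ k l g (hk : g ∈ M k) (hl : g ∈ M l), φ k ⟨g, hk⟩ = φ l ⟨g, hl⟩ := fun k l g hk hl =>
    DFunLike.congr_fun (hom_eq_of_le (le_inf (hB k) (hB l))
      ((φ k).comp (Subgroup.inclusion inf_le_left)) ((φ l).comp (Subgroup.inclusion inf_le_right))
      (fun g h => hφ k l g _ _ (Or.inl h)) fun g h => hφ k l g _ _ (Or.inr h)) ⟨g, hk, hl⟩
  let f : G → H := fun g => if h : ∃ k, g ∈ M k then φ h.choose ⟨g, h.choose_spec⟩ else 1
  have h1 : ∀ k g (hk : g ∈ M k), f g = φ k ⟨g, hk⟩ := fun k g hk =>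
    (dif_pos ⟨k, hk⟩).trans (h0 _ _ _ _ _)
  have h2 : ∀ k K, K ≤ M k → MulOn f K := fun k K h a ha b hb => by
    rw [h1 k a (h ha), h1 k b (h hb), h1 k _ (mul_mem (h ha) (h hb)), ← map_mul]
    rfl
  obtain ⟨Φ, h3, h4⟩ := exists_hom_of_mulOn (P := P) (h2 _ _ (hB (Classical.arbitrary κ)))
    fun i j => let ⟨k, h⟩ := hS _ i.2 _ j.2; h2 k _ (parabolic_le_iff.2 ⟨hB k, by
      rintro _ ⟨_, rfl | rfl, rfl⟩
      exacts [h.1, h.2]⟩)
  exact ⟨Φ, fun k => DFunLike.congr_fun (hom_eq_of_le (hB k) (Φ.comp (M k).subtype) (φ k)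
    (fun g h => (h3 _ h).trans (h1 k _ g.2)) fun g h =>
      (h4 ⟨g, h⟩ _ (s_mem_cell _)).trans (h1 k _ g.2))⟩

/-- **Tits' amalgam theorem**. -/
theorem exists_hom_of_family [Nonempty κ] (hS : ∀ s ∈ P.S, ∀ t ∈ P.S, ∃ k, s ∈ M k ∧ t ∈ M k)
    (hφ : ∀ k l g (hk : g ∈ M k) (hl : g ∈ M l), φ k ⟨g, hk⟩ = φ l ⟨g, hl⟩) :
    ∃ Φ : G →* H, ∀ k (g : M k), Φ g = φ k g :=
  exists_hom_of_family' M hB φ hS fun k l g hk hl _ => hφ k l g hk hl

omit φ in
/-- Three overgroups of `B`, any two of which generate the group, cover all pairs. -/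
theorem pairs_of_three {a b c : κ} (hab : M a ⊔ M b = ⊤) (hac : M a ⊔ M c = ⊤)
    (hbc : M b ⊔ M c = ⊤) : ∀ s ∈ P.S, ∀ t ∈ P.S, ∃ k, s ∈ M k ∧ t ∈ M k := fun s hs t ht => by
  have h := fun {k l : κ} (e : M k ⊔ M l = ⊤) {s : G} (hs : s ∈ P.S) =>
    mem_or_mem_of_sup (hB k) (hB l) hs (e.ge (Subgroup.mem_top s))
  have := h hab hs; have := h hac hs; have := h hbc hs
  have := h hab ht; have := h hac ht; have := h hbc ht
  have : (s ∈ M a ∧ t ∈ M a) ∨ (s ∈ M b ∧ t ∈ M b) ∨ (s ∈ M c ∧ t ∈ M c) := by tauto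
  rcases this with h | h | h <;> exact ⟨_, h⟩

/-- **Tits' amalgam theorem** for a family containing three overgroups of `B` (for instance three
distinct maximal parabolics) any two of which generate the group. -/
theorem exists_hom_of_three {a b c : κ} (hab : M a ⊔ M b = ⊤) (hac : M a ⊔ M c = ⊤)
    (hbc : M b ⊔ M c = ⊤)
    (hφ : ∀ k l g (hk : g ∈ M k) (hl : g ∈ M l), φ k ⟨g, hk⟩ = φ l ⟨g, hl⟩) :
    ∃ Φ : G →* H, ∀ k (g : M k), Φ g = φ k g :=
  have : Nonempty κ := ⟨a⟩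
  exists_hom_of_family M hB φ (pairs_of_three M hB hab hac hbc) hφ

/-- The extension of injective homomorphisms is injective. -/
theorem injective_of_family [Nonempty κ] (hS : ∀ s ∈ P.S, ∃ k, s ∈ M k)
    (hφ : ∀ k, Function.Injective (φ k)) {Φ : G →* H} (h : ∀ k (g : M k), Φ g = φ k g) :
    Function.Injective Φ := by
  have h1 : ∀ k, ∀ g ∈ M k, Φ g = 1 → g = 1 := fun k g hg e =>
    congrArg Subtype.val ((injective_iff_map_eq_one _).1 (hφ k) ⟨g, hg⟩ ((h k _).symm.trans e))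
  have h2 : Φ.ker ⊔ P.B ≤ P.B := eqOn_of_le le_sup_right le_rfl fun s hs h => by
    obtain ⟨x, hx, b, hb, rfl⟩ := Subgroup.mem_sup_of_normal_left.1 h
    obtain ⟨k, hk⟩ := hS _ hs
    rw [h1 k x ((Subgroup.mul_mem_cancel_right _ (hB k hb)).1 hk) hx, one_mul]
    exact hb
  exact (injective_iff_map_eq_one _).2 fun g e =>
    h1 (Classical.arbitrary κ) g (hB _ (h2 (Subgroup.mem_sup_left e))) e

omit φ in
theorem iSup_eq_top [Nonempty κ] (hS : ∀ s ∈ P.S, ∃ k, s ∈ M k) : ⨆ k, M k = ⊤ :=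
  top_le_iff.1 (eqOn_of_le (P := P) le_top ((hB (Classical.arbitrary κ)).trans (le_iSup M _))
    fun s hs _ => let ⟨k, h⟩ := hS s hs; le_iSup M k h)

/-- The image of the extension. -/
theorem range_of_family [Nonempty κ] (hS : ∀ s ∈ P.S, ∃ k, s ∈ M k) {Φ : G →* H}
    (h : ∀ k (g : M k), Φ g = φ k g) : Φ.range = ⨆ k, (φ k).range := by
  rw [MonoidHom.range_eq_map, ← iSup_eq_top M hB hS, Subgroup.map_iSup]
  refine iSup_congr fun k => le_antisymm ?_ ?_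
  · rintro _ ⟨g, hg, rfl⟩
    exact ⟨⟨g, hg⟩, (h k ⟨g, hg⟩).symm⟩
  · rintro _ ⟨g, rfl⟩
    exact ⟨g, g.2, h k g⟩

/-- Recognition: a faithful completion of the amalgam of parabolics is the group itself. -/
theorem exists_equiv_of_family [Nonempty κ] (hS : ∀ s ∈ P.S, ∀ t ∈ P.S, ∃ k, s ∈ M k ∧ t ∈ M k)
    (hφ : ∀ k l g (hk : g ∈ M k) (hl : g ∈ M l), φ k ⟨g, hk⟩ = φ l ⟨g, hl⟩)
    (hi : ∀ k, Function.Injective (φ k)) :
    ∃ e : G ≃* ↥(⨆ k, (φ k).range), ∀ k (g : M k), (e g : H) = φ k g := by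
  obtain ⟨Φ, h⟩ := exists_hom_of_family M hB φ hS hφ
  have h1 : ∀ s ∈ P.S, ∃ k, s ∈ M k := fun s hs => (hS s hs s hs).imp fun _ h => h.1
  exact ⟨(Φ.ofInjective (injective_of_family M hB φ h1 hi h)).trans
    (MulEquiv.subgroupCongr (range_of_family M hB φ h1 h)), h⟩

theorem exists_equiv_of_three {a b c : κ} (hab : M a ⊔ M b = ⊤) (hac : M a ⊔ M c = ⊤)
    (hbc : M b ⊔ M c = ⊤)
    (hφ : ∀ k l g (hk : g ∈ M k) (hl : g ∈ M l), φ k ⟨g, hk⟩ = φ l ⟨g, hl⟩)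
    (hi : ∀ k, Function.Injective (φ k)) :
    ∃ e : G ≃* ↥(⨆ k, (φ k).range), ∀ k (g : M k), (e g : H) = φ k g :=
  have : Nonempty κ := ⟨a⟩
  exists_equiv_of_family M hB φ (pairs_of_three M hB hab hac hbc) hφ hi

end family

end Cfsg.Agent.H35.BN

namespace Cfsg.Agent.H35

open H75 H34

universe u v

variable {p : ℕ} {Γ : Type u} [Group Γ] (M : Model.{u, v} p Γ) {H : Type*} [Group H]

theorem model_S_mem_par {J : Set M.ι} (hJ : M.τ.T.Stable J) {i : M.ι} (hi : i ∈ J) {s : Γ}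
    (hs : M.j s = M.τ.lift (M.S.wJ (M.τ.T.orb i))) : s ∈ M.par J := by
  obtain ⟨l1, -, l3⟩ := M.τ.lift_spec (M.τ.wJ_mem i)
  refine Subgroup.mem_sup_right (Subgroup.subset_closure ⟨(hs ▸ l1 : M.j s ∈ M.P.N), ?_⟩)
  rw [hs, l3]
  exact M.τ.T.fixJ_le _ (M.τ.T.wJ_orb_mem hJ hi)

theorem model_pairs {κ : Type*} (J : κ → Set M.ι) (hJ : ∀ k, M.τ.T.Stable (J k))
    (h2 : ∀ i j, ∃ k, i ∈ J k ∧ j ∈ J k) :
    ∀ s ∈ M.bn.S, ∀ t ∈ M.bn.S, ∃ k, s ∈ M.par (J k) ∧ t ∈ M.par (J k) :=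
  fun _ ⟨i, hi⟩ _ ⟨j, hj⟩ => (h2 i j).imp fun k h =>
    ⟨model_S_mem_par M (hJ k) h.1 hi, model_S_mem_par M (hJ k) h.2 hj⟩

/-- **Tits' amalgam theorem** for a group of Lie type and standard parabolics covering all pairs of
nodes. -/
theorem model_exists_hom {κ : Type*} (J : κ → Set M.ι) (hJ : ∀ k, M.τ.T.Stable (J k))
    (h2 : ∀ i j, ∃ k, i ∈ J k ∧ j ∈ J k) (φ : ∀ k, M.par (J k) →* H)
    (hφ : ∀ k l g (hk : g ∈ M.par (J k)) (hl : g ∈ M.par (J l)), φ k ⟨g, hk⟩ = φ l ⟨g, hl⟩) :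
    ∃ Φ : Γ →* H, ∀ k (g : M.par (J k)), Φ g = φ k g :=
  have : Nonempty κ := let ⟨i⟩ := M.nι; let ⟨k, _⟩ := h2 i i; ⟨k⟩
  BN.exists_hom_of_family (P := M.bn) _ (fun _ => M.B_le_par _) φ (model_pairs M J hJ h2) hφ

theorem model_exists_equiv {κ : Type*} (J : κ → Set M.ι) (hJ : ∀ k, M.τ.T.Stable (J k))
    (h2 : ∀ i j, ∃ k, i ∈ J k ∧ j ∈ J k) (φ : ∀ k, M.par (J k) →* H)
    (hφ : ∀ k l g (hk : g ∈ M.par (J k)) (hl : g ∈ M.par (J l)), φ k ⟨g, hk⟩ = φ l ⟨g, hl⟩)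
    (hi : ∀ k, Function.Injective (φ k)) :
    ∃ e : Γ ≃* ↥(⨆ k, (φ k).range), ∀ k (g : M.par (J k)), (e g : H) = φ k g :=
  have : Nonempty κ := let ⟨i⟩ := M.nι; let ⟨k, _⟩ := h2 i i; ⟨k⟩
  BN.exists_equiv_of_family (P := M.bn) _ (fun _ => M.B_le_par _) φ (model_pairs M J hJ h2) hφ hi

/-- The same for overgroups of the Borel subgroup, three of which generate pairwise. -/
theorem model_exists_equiv_of_three {κ : Type*} (Q : κ → Subgroup Γ) (hB : ∀ k, M.B ≤ Q k)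
    (φ : ∀ k, Q k →* H) {a b c : κ} (hab : Q a ⊔ Q b = ⊤) (hac : Q a ⊔ Q c = ⊤)
    (hbc : Q b ⊔ Q c = ⊤) (hφ : ∀ k l g (hk : g ∈ Q k) (hl : g ∈ Q l), φ k ⟨g, hk⟩ = φ l ⟨g, hl⟩)
    (hi : ∀ k, Function.Injective (φ k)) :
    ∃ e : Γ ≃* ↥(⨆ k, (φ k).range), ∀ k (g : Q k), (e g : H) = φ k g :=
  BN.exists_equiv_of_three (P := M.bn) Q hB φ hab hac hbc hφ hi

include M in
/-- Every Sylow normaliser contains the Borel subgroup of a (B,N)-pair. -/
theorem model_exists_bn [Finite Γ] [Fact p.Prime] (S : Sylow p Γ) :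
    ∃ P : BNPair Γ, P.B ≤ Subgroup.normalizer ((S : Subgroup Γ) : Set Γ) := by
  obtain ⟨g, hg⟩ := MulAction.exists_smul_eq Γ S M.sylow
  have h1 : (M.ofEquiv (MulAut.conj g)).U = S := by
    ext x
    change MulAut.conj g x ∈ (M.sylow : Subgroup Γ) ↔ _
    rw [← hg]
    exact Subgroup.smul_mem_pointwise_smul_iff (a := MulAut.conj g)
  refine ⟨(M.ofEquiv (MulAut.conj g)).bn, fun b hb => h1 ▸ Subgroup.mem_normalizer_iff.2 fun u =>
    ⟨Model.conj_U_B _ hb, fun h => ?_⟩⟩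
  simpa [mul_assoc] using Model.conj_U_B _ (inv_mem hb) h

include M in
/-- Intrinsic form: overgroups of a Sylow normaliser, three of which generate pairwise. -/
theorem model_sylow_exists_hom [Finite Γ] [Fact p.Prime] (S : Sylow p Γ) {κ : Type*}
    (Q : κ → Subgroup Γ) (hB : ∀ k, Subgroup.normalizer ((S : Subgroup Γ) : Set Γ) ≤ Q k)
    (φ : ∀ k, Q k →* H) {a b c : κ} (hab : Q a ⊔ Q b = ⊤) (hac : Q a ⊔ Q c = ⊤)
    (hbc : Q b ⊔ Q c = ⊤) (hφ : ∀ k l g (hk : g ∈ Q k) (hl : g ∈ Q l), φ k ⟨g, hk⟩ = φ l ⟨g, hl⟩) :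
    ∃ Φ : Γ →* H, (∀ k (g : Q k), Φ g = φ k g) ∧ Φ.range = ⨆ k, (φ k).range ∧
      ((∀ k, Function.Injective (φ k)) → Function.Injective Φ) := by
  obtain ⟨P, hP⟩ := model_exists_bn M S
  have h1 := fun k => hP.trans (hB k)
  have : Nonempty κ := ⟨a⟩
  have h2 := fun s hs => (BN.pairs_of_three Q h1 hab hac hbc s hs s hs).imp fun _ h => h.1
  obtain ⟨Φ, h⟩ := BN.exists_hom_of_three Q h1 φ hab hac hbc hφ
  exact ⟨Φ, h, BN.range_of_family Q h1 φ h2 h, fun hi => BN.injective_of_family Q h1 φ h2 hi h⟩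

/-- **Tits' amalgam theorem** for the finite groups of Lie type in characteristic `p`. -/
theorem lie_exists_hom [Finite Γ] [Fact p.Prime] (hΓ : IsLieTypeChar p Γ) (S : Sylow p Γ)
    {κ : Type*} (Q : κ → Subgroup Γ)
    (hB : ∀ k, Subgroup.normalizer ((S : Subgroup Γ) : Set Γ) ≤ Q k)
    (φ : ∀ k, Q k →* H) {a b c : κ} (hab : Q a ⊔ Q b = ⊤) (hac : Q a ⊔ Q c = ⊤)
    (hbc : Q b ⊔ Q c = ⊤) (hφ : ∀ k l g (hk : g ∈ Q k) (hl : g ∈ Q l), φ k ⟨g, hk⟩ = φ l ⟨g, hl⟩) :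
    ∃ Φ : Γ →* H, (∀ k (g : Q k), Φ g = φ k g) ∧ Φ.range = ⨆ k, (φ k).range ∧
      ((∀ k, Function.Injective (φ k)) → Function.Injective Φ) :=
  let ⟨M, _⟩ := exists_model hΓ
  model_sylow_exists_hom M S Q hB φ hab hac hbc hφ

end Cfsg.Agent.H35
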